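import Cfsg.Agent.H5.U.SubBridge
import Cfsg.Agent.H5.U.Frame1

/-! Maximal subgroups of `SU_4(q)`: hyperbolic bases, classes `C1`, `C2` (two blocks). -/

set_option autoImplicit false
set_option linter.unusedSimpArgs false
set_option linter.unusedSectionVars false
set_option linter.unusedVariables false

namespace Cfsg.Agent.H9.U4

open Module Cfsg.Agent.H6 Cfsg.Agent.H5.U Cfsg.Agent.H5.U.HF

variable {F : Type*} {V : Type*} [Field F] [StarRing F] [AddCommGroup V] [Module F V]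
  [NStar F] [Finite F] [FiniteDimensional F V] {h : H5.U.HF F V} {M : Subgroup (V ≃ₗ[F] V)}

theorem mem_of_mul (S : AddSubgroup F) (hS : ∀ s ∈ S, ∀ m t : F, m ≠ 0 → t ≠ 0 → star t = t →
    t * (star m / m) * s ∈ S) {x : F} (hx : x ∈ S) (x0 : x ≠ 0) (y : F) : y ∈ S := by
  obtain ⟨l, l1, l2⟩ := exists_norm_one_star_ne F
  obtain ⟨m, m0, hm⟩ := exists_div_star (norm_one_inv l1)
  obtain ⟨a, b, ha, hb, e⟩ := exists_coord l2 (y / x)
  have k : ∀ m t : F, m ≠ 0 → star t = t → t * (star m / m) * x ∈ S := fun m t m0 ht => by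
    by_cases t0 : t = 0
    · simp [t0]
    · exact hS x hx m t m0 t0 ht
  have l0 := ne_zero_of_norm_one l1
  have m1 := star_ne_zero' m0
  convert S.add_mem (k 1 a one_ne_zero ha) (k m b m0 hb) using 1
  rw [show star m / m = l by field_simp at hm ⊢; exact hm.symm, star_one, div_one, mul_one, ← add_mul,
    ← e, div_mul_cancel₀ _ x0]

/-- a hyperbolic basis of a four-dimensional space -/
structure HB (h : H5.U.HF F V) (e f a b : V) : Prop where
  ee : h e e = 0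
  ff : h f f = 0
  aa : h a a = 0
  bb : h b b = 0
  ef : h e f = 1
  ab : h a b = 1
  ea : h e a = 0
  eb : h e b = 0
  fa : h f a = 0
  fb : h f b = 0
  span : ∀ x, x = h x f • e + h x e • f + h x b • a + h x a • b

variable {e f a b : V}

theorem hb_of (h4 : finrank F V = 4) (ee : h e e = 0) (ff : h f f = 0) (aa : h a a = 0)
    (bb : h b b = 0) (ef : h e f = 1) (ab : h a b = 1) (ea : h e a = 0) (eb : h e b = 0)
    (fa : h f a = 0) (fb : h f b = 0) : HB h e f a b := by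
  refine ⟨ee, ff, aa, bb, ef, ab, ea, eb, fa, fb, fun x => ?_⟩
  have h1 := finrank_inf_hyp (h := h) (W := ⊤) trivial trivial ee ef
  have h2 := finrank_inf_hyp (h := h) (W := ⊤ ⊓ h.pv e ⊓ h.pv f) (e := a) (f := b)
    ⟨⟨trivial, symm0 ea⟩, symm0 fa⟩ ⟨⟨trivial, symm0 eb⟩, symm0 fb⟩ aa ab
  rw [finrank_top, h4] at h1
  have h3 : ⊤ ⊓ h.pv e ⊓ h.pv f ⊓ h.pv a ⊓ h.pv b = ⊥ := Submodule.finrank_eq_zero.1 (by omega)
  refine sub_eq_zero.1 ((Submodule.mem_bot F).1 (h3 ▸ ⟨⟨⟨⟨trivial, ?_⟩, ?_⟩, ?_⟩, ?_⟩)) <;>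
    simp [ee, ff, aa, bb, ef, ab, ea, eb, fa, fb, symm1 ef, symm1 ab, symm0 ea, symm0 eb, symm0 fa,
      symm0 fb]

theorem HB.swap (p : HB h e f a b) : HB h e f b a :=
  ⟨p.ee, p.ff, p.bb, p.aa, p.ef, symm1 p.ab, p.eb, p.ea, p.fb, p.fa, fun x => by
    conv_lhs => rw [p.span x]
    abel⟩

theorem HB.flip (p : HB h e f a b) : HB h a b e f :=
  ⟨p.aa, p.bb, p.ee, p.ff, p.ab, p.ef, symm0 p.ea, symm0 p.fa, symm0 p.eb, symm0 p.fb, fun x => by
    conv_lhs => rw [p.span x]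
    abel⟩

theorem HB.SU_le (p : HB h e f a b) (hM : M ≤ h.SU) (Xe : h.XIn M e) (Xf : h.XIn M f)
    (ha : ∀ l : F, l • a ∈ h.ME M e p.ee) (hb : ∀ l : F, l • b ∈ h.ME M e p.ee) : h.SU ≤ M := by
  refine SU_le_of_Q_X hM p.ee (qIn_of_ME p.ee Xe fun w _ hw => ?_) p.ff (by simp [p.ef]) Xf
  rw [p.span w, hw, zero_smul, add_zero]
  exact add_mem (add_mem (smul_self_mem_ME p.ee Xe _) (ha _)) (hb _)

theorem T_sub_mem (hM : M ≤ h.SU) {he : h e e = 0} {w v : V} (hw : w ∈ h.ME M e he) (hv : h v v = 0)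
    (hev : h e v = 0) {c : F} (hc : c + star c = 0) (hT : h.T v c ∈ M) :
    (c * h w v) • v ∈ h.ME M e he := by
  have h1 := ME_map hM hw hT (T_apply_of_perp hev)
  rw [T_apply hv hc] at h1
  simpa using sub_mem h1 hw

theorem HB.DD (p : HB h e f a b) {m t : F} (hm : m ≠ 0) (ht : t ≠ 0) (ht' : star t = t) :
    h.D e f m * h.D a b (t / m) ∈ h.SU ∧ (h.D e f m * h.D a b (t / m)) e = m • e ∧
      (h.D e f m * h.D a b (t / m)) a = (t / m) • a := by
  have h1 := div_ne_zero ht hm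
  have h2 := star_ne_zero' hm
  refine ⟨mem_SU.2 ⟨mul_mem (D_mem_GU p.ee p.ff p.ef hm) (D_mem_GU p.aa p.bb p.ab h1), ?_⟩, ?_, ?_⟩
  · rw [det_mul', det_D p.ee p.ff p.ef hm, det_D p.aa p.bb p.ab h1, star_div₀, ht']
    field_simp
  · simp [H5.U.mul_app, D_apply p.ee p.ff p.ef hm, D_apply p.aa p.bb p.ab h1, p.ea, p.eb, p.ee, p.ef]
    module
  · simp [H5.U.mul_app, D_apply p.ee p.ff p.ef hm, D_apply p.aa p.bb p.ab h1, symm0 p.ea, symm0 p.fa,
      p.aa, p.ab]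
    module

theorem HB.scale (p : HB h e f a b) (hM : M ≤ h.SU)
    (hD : ∀ m t : F, m ≠ 0 → t ≠ 0 → star t = t → h.D e f m * h.D a b (t / m) ∈ M) {l : F}
    (l0 : l ≠ 0) (hl : l • a ∈ h.ME M e p.ee) (s : F) : s • a ∈ h.ME M e p.ee := by
  refine mem_of_mul ((h.ME M e p.ee).comap (LinearMap.toSpanSingleton F V a).toAddMonoidHom)
    (fun s hs m t hm ht ht' => ?_) hl l0 s
  have := ME_map_smul (he := p.ee) hM hs (hD m t hm ht ht') (p.DD hm ht ht').2.1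
  simp only [LinearMap.toAddMonoidHom_coe, LinearMap.toSpanSingleton_apply, map_smul,
    (p.DD hm ht ht').2.2, smul_smul] at this
  show (t * (star m / m) * s) • a ∈ h.ME M e p.ee
  convert this using 2
  ring

theorem HB.SU_le_of_ME (p : HB h e f a b) (hM : M ≤ h.SU) (Xe : h.XIn M e) (Xf : h.XIn M f)
    (Xa : h.XIn M a) (Xb : h.XIn M b)
    (hD : ∀ m t : F, m ≠ 0 → t ≠ 0 → star t = t → h.D e f m * h.D a b (t / m) ∈ M) {w : V}
    (hw : w ∈ h.ME M e p.ee) (hwa : h w a ≠ 0) : h.SU ≤ M := by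
  have hd := del_ne (F := F)
  have h1 := p.scale hM hD (mul_ne_zero hd hwa) (T_sub_mem hM hw p.aa p.ea del_tr (Xa _ del_tr))
  refine p.SU_le hM Xe Xf h1 fun l => ?_
  simpa [p.ab, mul_div_cancel₀, hd] using T_sub_mem hM (h1 (l / del F)) p.bb p.eb del_tr (Xb _ del_tr)

theorem move_norm {W : Submodule F V} (hW : h.NdOn W) (h2 : 2 ≤ finrank F W) {x y : V} (hx : x ∈ W)
    (hy : y ∈ W) (x0 : x ≠ 0) (y0 : y ≠ 0) (hxy : h x x = h y y) : ∃ g ∈ h.GUW W, g x = y := by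
  obtain ⟨e, he, ee, ex, ey⟩ := hW.exists_iso_ne₂' h2 hx x0 hy y0
  obtain ⟨f, hf, ff, ef⟩ := hW.exists_partner he (ne_zero_left ex) ee
  have hm := div_ne_zero ex ey
  have h1 := D_mem_GUW he hf ee ff ef hm
  have h3 : h (h.D e f (h e x / h e y) x) e = h y e := by
    have := symm_ne ex
    simp [D_apply ee ff ef hm, ee, symm1 ef]; field_simp; ring
  obtain ⟨-, h4⟩ := E_trans ee ((h1.1 x x).trans hxy) h3 (h3 ▸ symm_ne ey)
  exact ⟨_, mul_mem (E_mem_SUW he (W.smul_mem _ (W.sub_mem hy (GUW_mem h1 hx))) _).1 h1, h4⟩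

theorem nd_core4 {W : Submodule F V} (hW : h.NdOn W) (h1 : finrank F W = 1) (h4 : finrank F V = 4)
    (hM : M ≤ h.SU) (hH : ∀ g ∈ h.SU, g ∈ stabV W → g ∈ M) (hg : ∃ g ∈ M, g ∉ stabV W) :
    h.SU ≤ M := by
  obtain ⟨g, hgM, hg⟩ := hg
  have hg1 := (hM hgM).1
  have hdim := hW.finrank_perp
  have hW' := hW.perp
  have hSU : h.SUW (h.perp W) ≤ M := fun k hk => hH k hk.2 (by
    have := stabV_perp hk.1.1 (GUW_mem_stabV hk.1)
    rwa [perp_perp] at this)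
  obtain ⟨_, ⟨u, hu, rfl⟩, huu, hu'⟩ := (hW'.map hg1).exists_iso_not_mem (A := h.perp W)
    (by rw [LinearEquiv.finrank_map_eq]; omega) (fun h' => hg (by
      have := stabV_perp hg1 (mem_stabV_of_fd (W := h.perp W) (g := g) fun x hx => h' ⟨x, hx, rfl⟩)
      rwa [perp_perp] at this))
  have hX : h.XIn M (g u) := XIn.map hM ((hg1 u u).symm.trans huu) (fun c _ => hSU (T_mem_SUW hu c)) hgM
  simp only [LinearEquiv.coe_coe] at huu hu'
  obtain ⟨v, hv, hvv⟩ := hW.exists_unit (by rintro rfl; simp at h1)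
  have key : ∀ x, x ∉ h.perp W → h x x = 0 → ∃ c : F, c ≠ 0 ∧ ∃ w ∈ h.perp W, h w w = -1 ∧
      x = c • (v + w) := fun x hx xx => by
    obtain ⟨a, ha, z, hz, rfl⟩ := hW.proj x
    obtain ⟨c, rfl⟩ : ∃ c : F, c • v = a := by
      rw [← Submodule.mem_span_singleton, Submodule.eq_of_le_of_finrank_eq (S₁ := F ∙ v) (S₂ := W)
        (by simpa using hv) (by rw [finrank_span_singleton (ne_zero_left (hvv ▸ one_ne_zero)), h1])]
      exact ha
    have c0 : c ≠ 0 := by rintro rfl; simp [hz] at hx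
    have c1 := star_ne_zero' c0
    refine ⟨c, c0, c⁻¹ • z, Submodule.smul_mem _ _ hz, ?_, by simp [smul_smul, c0]⟩
    simp [hz v hv, symm0 (hz v hv), hvv] at xx ⊢
    field_simp; linear_combination xx
  rw [← SUW_top]
  refine SUW_le_of_XIn ndOn_top (by simp [h4]) fun x _ xx => ?_
  by_cases hx : x ∈ h.perp W
  · exact fun c _ => hSU (T_mem_SUW hx c)
  obtain ⟨c, c0, w, hw, ww, rfl⟩ := key x hx xx
  obtain ⟨c', c0', w', hw', ww', e⟩ := key _ hu' huu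
  have w0 : h w w ≠ 0 := by simp [ww]
  obtain ⟨k, hk, k1⟩ := move_norm hW' (by omega) hw' hw (ne_zero_left (h := h) (y := w') (by simp [ww']))
    (ne_zero_left w0) (ww'.trans ww.symm)
  obtain ⟨z, hz, zz⟩ := (hW'.inf_pv hw' (by simp [ww'])).exists_unit (fun h0 => by
    have := finrank_inf_unit hw' (by simp [ww'] : h w' w' ≠ 0)
    rw [h0, finrank_bot] at this; omega)
  have k2 := hSU ⟨mul_mem hk (R_mem_GUW hz.1 _), mul_R_mem_SU hk.1 (z := z) (by simp [zz])⟩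
  have i1 : h (v + w') (v + w') = 0 := by simp [hvv, ww', hw' v hv, symm0 (hw' v hv)]
  have := ((e ▸ hX).of_smul i1 c0').map hM i1 k2
  rw [H5.U.mul_app, R_apply_of_perp (by simp [symm0 (hz.1 v hv), symm0 hz.2]), map_add, k1,
    hk.2 v (le_perp_perp W hv)] at this
  exact this.smul (by simp [hvv, ww, hw v hv, symm0 (hw v hv)]) c

theorem nd_maximal4 {F : Type*} [Field F] [Fintype F] (q : ℕ) (hF : Fintype.card F = q ^ 2)
    (W : Submodule F (Fin 4 → F)) (hW0 : W ≠ ⊥)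
    (hW : Geo.IsNondegenerateOn (hermForm 4 F q) W) (hdim : 2 * Module.finrank F W < 4) :
    Geo.IsMaximalIn (GU 4 F q ⊓ Geo.specialLinear (Fin 4) F)
      (Geo.subspaceStabilizer W ⊓ (GU 4 F q ⊓ Geo.specialLinear (Fin 4) F)) := by
  let _ := powStar hF
  have := powStar_nstar hF
  have hW' := ndOn_of_isNondegenerateOn hF hW
  exact isMaximalIn_of_core (LinearEquiv.refl F _) (stdHF (Fin 4) F) _ _ (mem_GU_iff hF 4)
    (fun g => g ∈ stabV W) (fun g _ => Iff.rfl)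
    (HF.nd_ne hW0 hW' (by rintro rfl; simp at hdim))
    fun M hM hH hg => nd_core4 hW' (by have := Submodule.finrank_eq_zero.not.2 hW0; omega)
      (by simp) hM hH hg

theorem SU_le_of_two_planes (h4 : finrank F V = 4) (hM : M ≤ h.SU) {A B : Submodule F V}
    (hA : h.NdOn A) (hB : h.NdOn B) (hA2 : 2 ≤ finrank F A) (hB2 : 2 ≤ finrank F B)
    (hAB : ∀ x ∈ A, ∀ y ∈ B, h x y = 0)
    (hH : ∀ g ∈ h.GUW A, ∀ k ∈ h.GUW B, g * k ∈ h.SU → g * k ∈ M)
    (hq : ∃ t : F, star t = t ∧ t ≠ 0 ∧ t ≠ 1) {u x y : V} (huu : h u u = 0) (hu : h.XIn M u)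
    (hx : x ∈ A) (hxu : h x u ≠ 0) (hy : y ∈ B) (hyu : h y u ≠ 0) : h.SU ≤ M := by
  have XA : ∀ v ∈ A, h.XIn M v := fun v hv c _ => by
    simpa using hH _ (T_mem_SUW hv c).1 1 (one_mem _) (by simpa using T_mem_SU v c)
  have XB : ∀ v ∈ B, h.XIn M v := fun v hv c _ => by
    simpa using hH 1 (one_mem _) _ (T_mem_SUW hv c).1 (by simpa using T_mem_SU v c)
  obtain ⟨e, he, e0, ee, w, hw, w0, hew⟩ := exists_ME_of_two hM hA hB hA2 hB2 hAB
    (fun v hv _ => XA v hv) (fun v hv _ => XB v hv) (Or.inl hq) huu hu hx hxu hy hyu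
  obtain ⟨f, hf, ff, ef⟩ := hA.exists_partner he e0 ee
  obtain ⟨z, hz, hzw⟩ := hB.exists_ne hw w0
  obtain ⟨a, ha, aa, aw⟩ := hB.exists_iso_ne' hB2 hz hzw
  obtain ⟨b, hb, bb, ab⟩ := hB.exists_partner ha (ne_zero_left aw) aa
  have p := hb_of h4 ee ff aa bb ef ab (hAB e he a ha) (hAB e he b hb) (hAB f hf a ha) (hAB f hf b hb)
  exact p.SU_le_of_ME hM (XA e he) (XA f hf) (XB a ha) (XB b hb) (fun m t hm ht ht' =>
    hH _ (D_mem_GUW he hf ee ff ef hm) _ (D_mem_GUW ha hb aa bb ab (div_ne_zero ht hm))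
      (p.DD hm ht ht').1) hew (symm_ne aw)

theorem dec_core4 {ι : Type*} [Fintype ι] [DecidableEq ι] {D : ι → Submodule F V} (d : h.Dec D 2)
    (h4 : finrank F V = 4) (hq : ∃ t : F, star t = t ∧ t ≠ 0 ∧ t ≠ 1)
    (hM : M ≤ h.SU) (hH : ∀ g ∈ h.SU, DecStab D g → g ∈ M) (hg : ∃ g ∈ M, ¬ DecStab D g) :
    h.SU ≤ M := by
  obtain ⟨g, hgM, hg⟩ := hg
  have hg1 := (hM hgM).1
  have hX : ∀ l, ∀ v ∈ D l, h.XIn M v := fun l v hv c _ =>
    hH _ (T_mem_SU v c) (d.stab (T_mem_SUW hv c).1)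
  simp only [DecStab, not_forall, not_exists] at hg
  obtain ⟨i, hi⟩ := hg
  obtain ⟨v, hv, hvv, hu⟩ : ∃ v ∈ D i, h v v = 0 ∧ ∀ j, g v ∉ D j := by
    by_contra! h'
    obtain ⟨v₀, hv₀, hv₀', hvv₀⟩ := exists_iso (h := h) (K := D i) (by rw [d.rk])
    obtain ⟨j, hj⟩ := h' v₀ hv₀ hvv₀
    obtain ⟨x, hx, hx'⟩ := hi j
    apply hx'
    refine (d.nd i).le_of_iso (A := (D j).comap (g : V →ₗ[F] V)) (by rw [d.rk])
      (fun v hv hvv => ?_) hx
    obtain ⟨l, hl⟩ := h' v hv hvv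
    by_cases hlj : l = j
    · exact hlj ▸ hl
    have h1 : h v v₀ = 0 := by rw [← hg1]; exact d.orth l j hlj _ hl _ hj
    obtain ⟨m, hm⟩ := h' (v + v₀) ((D i).add_mem hv hv₀) (by simp [hvv, hvv₀, h1, symm0 h1])
    rw [map_add] at hm
    by_cases hmj : m = j
    · subst hmj; simpa using (D m).sub_mem hm hj
    · exfalso
      have : g v₀ = 0 := d.nd j _ hj fun y hy => by
        simpa [d.orth j l (Ne.symm hlj) y hy _ hl] using d.orth j m (Ne.symm hmj) y hy _ hm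
      exact hv₀' (by simpa using this)
  obtain ⟨i', j, hij, x, hx, y, hy, hxu, hyu⟩ := d.exists_two hu i
  exact SU_le_of_two_planes h4 hM (d.nd i') (d.nd j) (by rw [d.rk]) (by rw [d.rk]) (d.orth i' j hij)
    (fun g hg k hk h1 => hH _ h1 ((d.stab hg).mul (d.stab hk))) hq (by rw [hg1, hvv])
    ((hX i v hv).map hM hvv hgM) hx hxu hy hyu

theorem dec_maximal4 {F : Type*} [Field F] [Fintype F] (q : ℕ) (hF : Fintype.card F = q ^ 2)
    (hq : 3 ≤ q) (D : Fin 2 → Submodule F (Fin 4 → F))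
    (hD : Geo.IsNondegenerateMDecomposition (hermForm 4 F q) 2 D) :
    Geo.IsMaximalIn (GU 4 F q ⊓ Geo.specialLinear (Fin 4) F)
      (Geo.decompositionStabilizer D ⊓ (GU 4 F q ⊓ Geo.specialLinear (Fin 4) F)) := by
  let _ := powStar hF
  have := powStar_nstar hF
  have d := dec_of_decomp hF hD
  exact isMaximalIn_of_core (LinearEquiv.refl F _) (stdHF (Fin 4) F) _ _ (mem_GU_iff hF 4)
    (HF.DecStab D) (fun g _ => mem_decompositionStabilizer' hD.decomp)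
    (d.ne le_rfl (by simp)) fun M hM hH hg => dec_core4 d (by simp) (exists_F0_ne hF hq) hM hH hg

end Cfsg.Agent.H9.U4
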