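import Cfsg.Agent.H9.U4.A

/-! Maximal subgroups of `SU_4(q)`: symplectic subfield subgroups, pairs of isotropic planes. -/

set_option autoImplicit false
set_option linter.unusedSimpArgs false
set_option linter.unusedSectionVars false
set_option linter.unusedVariables false

namespace Cfsg.Agent.H9.U4

open Module Cfsg.Agent.H6 Cfsg.Agent.H5.U Cfsg.Agent.H5.U.HF

variable {F : Type*} {V : Type*} [Field F] [StarRing F] [AddCommGroup V] [Module F V]
  [NStar F] [Finite F] [FiniteDimensional F V] {h : H5.U.HF F V} {M : Subgroup (V ≃ₗ[F] V)}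

theorem sp_core4 {cj : V →+ V} (c : h.Conj (-1) cj) (halt : ∀ x, cj x = x → h x x = 0)
    (hM : M ≤ h.SU) (hH : ∀ g ∈ h.SU, ConjStab cj g → g ∈ M)
    (hg : ∃ g ∈ M, ¬ ConjStab cj g) : h.SU ≤ M := by
  obtain ⟨g, hgM, hg⟩ := hg
  have hg1 := (hM hgM).1
  have hd := del_ne (F := F)
  have hE : ∀ e w, cj e = e → cj w = w → h w e = 0 → ∀ d : F, d + star d = 0 →
      h.Ok e (del F • w) d ∧ h.E e (del F • w) d ∈ M := by
    intro e w he hw hwe d hd
    have o : h.Ok e (del F • w) d := ⟨halt e he, by simp [hwe], by simp [halt w hw, hd]⟩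
    refine ⟨o, hH _ (E_mem_SU _ _ _) ⟨1, fun x hx => ?_⟩⟩
    have hd' : star d = -d := by linear_combination hd
    rw [E_apply o, one_smul]
    simp [c.smul, he, hw, hx, hd', c.rat he hx, c.rat hw hx]
  have hX : ∀ e, cj e = e → h.XIn M e := fun e he d hd => by
    have := (hE e 0 he (by simp) (by simp) (-d) (by rw [star_neg]; linear_combination -hd)).2
    rwa [smul_zero] at this
  obtain ⟨x, hx, hxg⟩ : ∃ x, cj x = x ∧ ∀ l : F, cj (g x) ≠ l • g x := by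
    by_contra! h'
    choose! l hl using h'
    obtain ⟨x₀, hx₀, hx₀'⟩ : ∃ x₀, cj x₀ = x₀ ∧ x₀ ≠ 0 := by
      by_contra! h0
      exact hg ⟨1, fun y hy => by simp [h0 y hy]⟩
    refine hg ⟨l x₀, fun y hy => ?_⟩
    by_cases hy0 : y = 0
    · simp [hy0]
    rw [hl y hy]
    congr 1
    by_cases h1 : ∃ d : F, y = d • x₀
    · obtain ⟨d, rfl⟩ := h1
      exact (c.eq_of_eig_smul hx₀ hy (hl _ hx₀) (hl _ hy) hy0).symm
    · push Not at h1
      exact (eq_of_eig_add (hl _ hx₀) (hl _ hy) (hl _ (by rw [map_add, hx₀, hy])) hx₀' h1).symm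
  have huu : h (g x) (g x) = 0 := by rw [hg1, halt x hx]
  have hXu : h.XIn M (g x) := (hX x hx).map hM (halt x hx) hgM
  generalize g x = u at huu hXu hxg
  obtain ⟨θ, hθ⟩ := NStar.exists_ne (F := F)
  have t0 := sub_ne_zero.2 hθ.symm
  have t1 := sub_ne_zero.2 hθ
  obtain ⟨e, w, he, hw, rfl⟩ : ∃ e w, cj e = e ∧ cj w = w ∧ u = e + θ • w := by
    refine ⟨u - θ • (θ - star θ)⁻¹ • (u - cj u), (θ - star θ)⁻¹ • (u - cj u), ?_, ?_, by simp⟩ <;>
      simp only [map_sub, c.smul, c.invol, star_inv₀, star_sub, star_star] <;> match_scalars <;>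
      field_simp <;> ring
  have key : ∀ (z : V) (a : F), cj z = z → e + θ • w ≠ a • z := fun z a hz h1 =>
    hxg (star a / a) (by
      by_cases a0 : a = 0
      · simp [h1, a0]
      · rw [h1, c.smul, hz, smul_smul, div_mul_cancel₀ _ a0])
  have hee := halt e he
  have hwe : h w e = 0 := by
    simp [hee, halt w hw, c.rat he hw] at huu
    exact mul_left_cancel₀ t0 (by linear_combination huu)
  have h3 : w ∈ core F (h.ME M e hee) := fun l => by
    obtain ⟨a, b, ha, hb, h1⟩ := exists_coord hθ (l / del F)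
    have h2 := smul_mem_ME_of_X (d := b * del F) hee (w := θ • w) (by simp [halt w hw]) (by simp [hwe])
      (by simp [hb]) (hX e he) ((hX w hw).smul (halt w hw) θ) hXu
    convert add_mem h2 (⟨0, hE e (a • w) he (by rw [c.smul, ha, hw]) (by simp [hwe]) 0 (by simp)⟩ :
      _ ∈ h.ME M e hee) using 1
    rw [div_eq_iff hd] at h1
    rw [h1]; module
  have h4 : ∀ v, cj v = v → h v e = 0 → h w v ≠ 0 → v ∈ core F (h.ME M e hee) := fun v hv hve hav l => by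
    simpa [hd, hav, mul_div_cancel₀, div_mul_cancel₀, ← mul_assoc, mul_div_assoc'] using T_sub_mem hM
      (h3 (l / del F / h w v)) (halt v hv) (symm0 hve) del_tr (hX v hv _ del_tr)
  obtain ⟨y, hy1, hy2⟩ := exists_dual_pair' (h := h) (x := e) (w := w) (fun a ha =>
    key e (1 + θ * a) he (by rw [ha]; module)) 1
  obtain ⟨v₀, hv₀e, hv₀, hv₀'⟩ := c.exists_rat_ne (c.pv_inv he) (φ := h.lin w) (y := y)
    (symm0 hy1) (by rw [lin_apply, symm1 hy2]; exact one_ne_zero)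
  have h5 : h.pv e ≤ core F (h.ME M e hee) := by
    by_contra h'
    obtain ⟨v, hve, hv, hv'⟩ := c.exists_rat_not_mem (c.pv_inv he) h'
    apply hv'
    by_cases h6 : h w v = 0
    · simpa using Submodule.sub_mem _ (h4 (v + v₀) (by rw [map_add, hv, hv₀])
        ((h.pv e).add_mem hve hv₀e) (by rw [add_right, h6, zero_add]; exact symm_ne hv₀'))
        (h4 v₀ hv₀ hv₀e (symm_ne hv₀'))
    · exact h4 v hv hve h6
  obtain ⟨z, hz⟩ := h.exists_ne (show e ≠ 0 from fun h0 => key w θ hw (by simp [h0]))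
  obtain ⟨f, -, hf, hfe⟩ := c.exists_rat_ne (U := ⊤) (fun _ _ => trivial) (φ := h.lin e) (y := z)
    trivial hz
  exact SU_le_of_Q_X hM hee (qIn_of_ME hee (hX e he) fun w _ hw => mem_of_mem_core (h5 hw))
    (halt f hf) (symm_ne hfe) (hX f hf)

open Matrix in
theorem sp_maximal4 {F : Type*} [Field F] [Fintype F] (q : ℕ)
    (hF : Fintype.card F = q ^ 2) (F₀ : Subfield F) (P : GL (Fin 4) F) (ζ : F)
    (hcard : Fintype.card F = Nat.card F₀ ^ 2) (hζ0 : ζ ≠ 0) (hζ : ζ + ζ ^ q = 0)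
    (hP : Geo.IsFormRationalStructure (hermForm 4 F q) F₀ ζ P)
    (halt : ∀ u : Fin 4 → F, (∀ i, u i ∈ F₀) → hermForm 4 F q ((P : Matrix (Fin 4) (Fin 4) F) *ᵥ u)
      ((P : Matrix (Fin 4) (Fin 4) F) *ᵥ u) = 0) :
    Geo.IsMaximalIn (GU 4 F q ⊓ Geo.specialLinear (Fin 4) F)
      (Geo.subfieldSubgroup F₀ P ⊓ (GU 4 F q ⊓ Geo.specialLinear (Fin 4) F)) := by
  let _ := powStar hF
  have := powStar_nstar hF
  obtain rfl := subfield_eq_F0 hF F₀ hcard
  let h := (stdHF (Fin 4) F).comap (gl0 P).symm.symm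
  have c : h.Conj (-1) (cj0 (Fin 4) F) := conj_cj0 h (Or.inr rfl) fun i j => by
    have h1 : star (ζ * h (Pi.single i 1) (Pi.single j 1)) =
      ζ * h (Pi.single i 1) (Pi.single j 1) := hP _ _ (single_mem _ i) (single_mem _ j)
    have h2 : star ζ = -ζ := eq_neg_of_add_eq_zero_right hζ
    rw [star_mul', h2, HF.conj] at h1
    apply mul_left_cancel₀ hζ0
    linear_combination -h1
  have halt' : ∀ x, cj0 (Fin 4) F x = x → h x x = 0 := fun x hx => halt x (cj0_eq_iff.1 hx)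
  exact isMaximalIn_of_core (gl0 P).symm h _ _
    (fun g => (mem_GU_iff hF 4 g).trans (mem_GU_comap _ _ g))
    (HF.ConjStab (cj0 (Fin 4) F)) (fun g _ => mem_subfieldSubgroup_F0)
    (c.sp_ne halt' (by simp)) fun M hM hH hg => sp_core4 c halt' hM hH hg

/-- complementary totally isotropic planes -/
structure TP (h : H5.U.HF F V) (A B : Submodule F V) : Prop where
  tsA : ∀ x ∈ A, ∀ y ∈ A, h x y = 0
  tsB : ∀ x ∈ B, ∀ y ∈ B, h x y = 0
  dec : ∀ x, ∃ a ∈ A, ∃ b ∈ B, x = a + b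
  rkA : finrank F A = 2
  rkB : finrank F B = 2
  dim : finrank F V = 4

variable {A B A' B' : Submodule F V} {e f a b : V}

theorem TP.symm (p : TP h A B) : TP h B A :=
  ⟨p.tsB, p.tsA, fun x => by
    obtain ⟨a, ha, b, hb, rfl⟩ := p.dec x
    exact ⟨b, hb, a, ha, add_comm _ _⟩, p.rkB, p.rkA, p.dim⟩

theorem TP.eq_zero (p : TP h A B) (ha : a ∈ A) (h0 : ∀ b ∈ B, h b a = 0) : a = 0 :=
  h.nd fun x => by
    obtain ⟨a', ha', b, hb, rfl⟩ := p.dec x
    simp [p.tsA a' ha' a ha, h0 b hb]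

theorem TP.mem_of_perp (p : TP h A B) {x : V} (hx : ∀ a ∈ A, h a x = 0) : x ∈ A := by
  obtain ⟨a, ha, b, hb, rfl⟩ := p.dec x
  have : b = 0 := p.symm.eq_zero hb fun a' ha' => by simpa [p.tsA a' ha' a ha] using hx a' ha'
  simpa [this] using ha

theorem TP.disj (p : TP h A B) {x : V} (ha : x ∈ A) (hb : x ∈ B) : x = 0 :=
  p.eq_zero ha fun b hb' => p.tsB b hb' x hb

theorem TP.partner (p : TP h A B) (he : e ∈ A) (e0 : e ≠ 0) : ∃ f ∈ B, h e f = 1 := by
  obtain ⟨f, hf, h1⟩ : ∃ f ∈ B, h f e ≠ 0 := by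
    by_contra! h1; exact e0 (p.eq_zero he h1)
  exact ⟨(h f e)⁻¹ • f, B.smul_mem _ hf, by simp [symm_ne h1]⟩

theorem TP.hb (p : TP h A B) (he : e ∈ A) (hf : f ∈ B) (ef : h e f = 1) (hb : b ∈ B) (b0 : b ≠ 0)
    (eb : h e b = 0) : ∃ a ∈ A, HB h e f a b := by
  obtain ⟨a, ha, h1⟩ := p.symm.partner hb b0
  have h2 := A.sub_mem ha (A.smul_mem (h a f) he)
  exact ⟨_, h2, hb_of p.dim (p.tsA e he e he) (p.tsB f hf f hf) (p.tsA _ h2 _ h2) (p.tsB b hb b hb) ef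
    (by simp [symm1 h1, eb]) (p.tsA e he _ h2) eb (by simp [symm1 ef]) (p.tsB f hf b hb)⟩

theorem TP.exists_perp (p : TP h A B) (e : V) : ∃ b ∈ B, b ≠ 0 ∧ h e b = 0 := by
  obtain ⟨b, hb, b0, h1⟩ := exists_ne_perp (h := h) B [e] (by simp [p.rkB])
  exact ⟨b, hb, b0, symm0 (h1 e (by simp))⟩

theorem TP.exists_hb (p : TP h A B) (he : e ∈ A) (e0 : e ≠ 0) :
    ∃ f ∈ B, ∃ a ∈ A, ∃ b ∈ B, HB h e f a b := by
  obtain ⟨f, hf, ef⟩ := p.partner he e0
  obtain ⟨b, hb, b0, eb⟩ := p.exists_perp e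
  obtain ⟨a, ha, k⟩ := p.hb he hf ef hb b0 eb
  exact ⟨f, hf, a, ha, b, hb, k⟩

theorem exists_w (ee : h e e = 0) (ff : h f f = 0) (ef : h e f = 1) : ∃ s ∈ h.SU, ∀ x,
    s x = x - h x f • e - h x e • f + (del F * h x e) • e - ((del F)⁻¹ * h x f) • f := by
  have hd := del_ne (F := F)
  have h1 : -(del F)⁻¹ + star (-(del F)⁻¹) = 0 := by simp
  refine ⟨h.T e (del F) * h.T f (-(del F)⁻¹) * h.T e (del F),
    mul_mem (mul_mem (T_mem_SU _ _) (T_mem_SU _ _)) (T_mem_SU _ _), fun x => ?_⟩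
  simp only [H5.U.mul_app, T_apply ee del_tr, T_apply ff h1, add_left, smul_left, ee, ef, symm1 ef, ff]
  match_scalars <;> field_simp <;> ring

theorem TP.exists_swap (p : TP h A B) : ∃ s ∈ h.SU, (∀ x ∈ A, s x ∈ B) ∧ ∀ x ∈ B, s x ∈ A := by
  obtain ⟨e, he, e0⟩ := exists_ne_zero_of_finrank (K := A) (by simp [p.rkA])
  obtain ⟨f, hf, a, ha, b, hb, k⟩ := p.exists_hb he e0
  obtain ⟨s, hs, s1⟩ := exists_w k.ee k.ff k.ef
  obtain ⟨t, ht, t1⟩ := exists_w k.aa k.bb k.ab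
  refine ⟨s * t, mul_mem hs ht, fun x hx => ?_, fun x hx => ?_⟩
  · rw [k.span x, p.tsA x hx e he, p.tsA x hx a ha]
    simp [H5.U.mul_app, s1, t1, k.ee, k.ef, k.ea, k.eb, k.aa, k.ab, symm0 k.eb, symm0 k.fb]
    exact B.sub_mem (B.neg_mem (B.smul_mem _ hb)) (B.smul_mem _ hf)
  · rw [k.span x, p.tsB x hx f hf, p.tsB x hx b hb]
    simp [H5.U.mul_app, s1, t1, k.ff, symm1 k.ef, k.fa, k.fb, k.bb, symm1 k.ab, symm0 k.ea, symm0 k.fa]
    exact A.add_mem (A.smul_mem _ ha) (A.smul_mem _ he)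

theorem TP.E_stab (p : TP h A B) (ha : a ∈ A) (hb : b ∈ B) (hab : h b a = 0) :
    h.Ok a b 0 ∧ PairStab A B (h.E a b 0) := by
  have o : h.Ok a b 0 := ⟨p.tsA a ha a ha, hab, by simp [p.tsB b hb b hb]⟩
  refine ⟨o, Or.inl fun x hx => ?_, Or.inr fun x hx => ?_⟩
  · rw [E_apply_of_perp_left o (p.tsA x hx a ha)]; exact A.sub_mem hx (A.smul_mem _ ha)
  · rw [E_apply o, p.tsB x hx b hb]; simpa using B.add_mem hx (B.smul_mem _ hb)

/-- pairs whose stabiliser lies in `M` -/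
structure Gd (h : H5.U.HF F V) (M : Subgroup (V ≃ₗ[F] V)) (A B : Submodule F V) : Prop where
  tp : TP h A B
  mem : ∀ g ∈ h.SU, PairStab A B g → g ∈ M

theorem Gd.symm (p : Gd h M A B) : Gd h M B A := ⟨p.tp.symm, fun g hg h1 => p.mem g hg h1.symm⟩

theorem Gd.map (p : Gd h M A B) (hM : M ≤ h.SU) {g : V ≃ₗ[F] V} (hg : g ∈ M) :
    Gd h M (A.map (g : V →ₗ[F] V)) (B.map (g : V →ₗ[F] V)) := by
  have hg1 := (hM hg).1
  refine ⟨⟨?_, ?_, fun x => ?_, by rw [LinearEquiv.finrank_map_eq, p.tp.rkA],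
    by rw [LinearEquiv.finrank_map_eq, p.tp.rkB], p.tp.dim⟩, fun k hk h1 => ?_⟩
  · rintro _ ⟨x, hx, rfl⟩ _ ⟨y, hy, rfl⟩; exact (hg1 x y).trans (p.tp.tsA x hx y hy)
  · rintro _ ⟨x, hx, rfl⟩ _ ⟨y, hy, rfl⟩; exact (hg1 x y).trans (p.tp.tsB x hx y hy)
  · obtain ⟨a, ha, b, hb, e⟩ := p.tp.dec (g⁻¹ x)
    exact ⟨_, ⟨a, ha, rfl⟩, _, ⟨b, hb, rfl⟩, by simpa using congrArg g e⟩
  have key : ∀ C D : Submodule F V, (∀ x ∈ C.map (g : V →ₗ[F] V), k x ∈ D.map (g : V →ₗ[F] V)) →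
      ∀ x ∈ C, (g⁻¹ * k * g) x ∈ D := fun C D h2 x hx => by
    obtain ⟨y, hy, e⟩ := h2 _ ⟨x, hx, rfl⟩
    simp only [LinearEquiv.coe_coe] at e
    simpa [H5.U.mul_app, ← e] using hy
  have := p.mem _ (mul_mem (mul_mem (inv_mem (hM hg)) hk) (hM hg))
    ⟨h1.1.imp (key A A) (key A B), h1.2.imp (key B A) (key B B)⟩
  simpa [mul_assoc] using mul_mem (mul_mem hg this) (inv_mem hg)

theorem Gd.E_mem (p : Gd h M A B) (ha : a ∈ A) (hb : b ∈ B) (hab : h b a = 0) :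
    h.Ok a b 0 ∧ h.E a b 0 ∈ M :=
  ⟨(p.tp.E_stab ha hb hab).1, p.mem _ (E_mem_SU _ _ _) (p.tp.E_stab ha hb hab).2⟩

theorem Gd.D_mem (p : Gd h M A B) (he : e ∈ A) (hf : f ∈ B) (ef : h e f = 1) {m : F} (hm : m ≠ 0)
    (hm' : star m = m) : h.D e f m ∈ M := by
  have ee := p.tp.tsA e he e he
  have ff := p.tp.tsB f hf f hf
  refine p.mem _ (mem_SU.2 ⟨D_mem_GU ee ff ef hm, by rw [det_D ee ff ef hm, hm', mul_inv_cancel₀ hm]⟩)
    ⟨Or.inl fun x hx => ?_, Or.inr fun x hx => ?_⟩ <;> rw [D_apply ee ff ef hm]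
  · simpa [p.tp.tsA x hx e he] using A.add_mem hx (A.smul_mem _ he)
  · simpa [p.tp.tsB x hx f hf] using B.add_mem hx (B.smul_mem _ hf)

theorem real_sq {t : F} (ht : star t = t) : ∃ a b : F, star a = a ∧ star b = b ∧ t = a * a - b * b := by
  by_cases h2 : (2 : F) = 0
  · have : CharP (F0 F) 2 := CharTwo.of_one_ne_zero_of_two_eq_zero one_ne_zero (Subtype.ext h2)
    obtain ⟨r, hr⟩ := isSquare_of_charTwo' (⟨t, ht⟩ : F0 F)
    exact ⟨r, 0, r.2, star_zero F, by simpa using congrArg Subtype.val hr⟩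
  · exact ⟨(t + 1) / 2, (t - 1) / 2, by simp [ht], by simp [ht], by field_simp; ring⟩

theorem X_of_T (hM : M ≤ h.SU) (ee : h e e = 0) (hD : ∀ m : F, m ≠ 0 → star m = m → ∃ g ∈ M, g e = m • e)
    {d : F} (d0 : d ≠ 0) (hd : d + star d = 0) (hT : h.T e d ∈ M) : h.XIn M e := fun c hc => by
  have key : ∀ m : F, star m = m → m * m * d + star (m * m * d) = 0 ∧ h.T e (m * m * d) ∈ M := fun m hm => by
    refine ⟨by simp only [star_mul', hm]; linear_combination m * m * hd, ?_⟩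
    by_cases m0 : m = 0
    · simp [m0, T_zero]
    obtain ⟨g, hg, h1⟩ := hD m m0 hm
    have := mul_mem (mul_mem hg hT) (inv_mem hg)
    rwa [conj_T (hM hg).1 ee hd, h1, T_smul ee hd, hm] at this
  obtain ⟨a, b, ha, hb, h1⟩ := real_sq (t := c / d) (by
    rw [star_div₀, eq_neg_of_add_eq_zero_right hc, eq_neg_of_add_eq_zero_right hd, neg_div_neg_eq])
  have := mul_mem (key a ha).2 (inv_mem (key b hb).2)
  rw [T_inv ee (key b hb).1, T_mul ee (key a ha).1 (by rw [star_neg]; linear_combination -(key b hb).1)]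
    at this
  convert this using 2
  rw [div_eq_iff d0] at h1
  linear_combination h1

section Main

variable (hM : M ≤ h.SU) (hne : ¬ h.SU ≤ M) (hq : ∃ t : F, star t = t ∧ t ≠ 0 ∧ t * t ≠ 1)
include hM hne

theorem Gd.T_zero (p : Gd h M A B) (he : e ∈ A) (e0 : e ≠ 0) {d : F} (hd : d + star d = 0)
    (hT : h.T e d ∈ M) : d = 0 := by
  by_contra d0
  obtain ⟨f, hf, a, ha, b, hb, k⟩ := p.tp.exists_hb he e0
  have hX := X_of_T hM k.ee (fun m m0 hm => ⟨_, p.D_mem he hf k.ef m0 hm, by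
    simp [D_apply k.ee k.ff k.ef m0, k.ee, k.ef]; module⟩) d0 hd hT
  have XA : ∀ l : F, h.XIn M (e + l • a) := fun l => by
    obtain ⟨o, ho⟩ := p.E_mem (A.smul_mem l ha) (B.neg_mem hf) (by simp [k.fa])
    simpa [E_apply o, k.ea, k.ef] using hX.map hM k.ee ho
  have Xa : h.XIn M a := by
    obtain ⟨o, ho⟩ := p.E_mem he hb (symm0 k.eb)
    simpa [E_apply o, k.ee, k.eb, symm0 k.ea, k.ab] using (XA 1).map hM (by
      simp [k.ee, k.aa, k.ea, symm0 k.ea]) ho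
  obtain ⟨s, hs, s1, s2⟩ := p.tp.exists_swap
  have hsM := p.mem s hs ⟨Or.inr s1, Or.inl s2⟩
  have Xf : h.XIn M f := by
    have h1 := s2 f hf
    have h2 : h.XIn M (s f) := by
      rw [k.span (s f), p.tp.tsA _ h1 e he, p.tp.tsA _ h1 a ha]
      by_cases h3 : h (s f) f = 0
      · simpa [h3] using Xa.smul k.aa (h (s f) b)
      · simpa [smul_smul, mul_div_cancel₀ _ h3] using (XA (h (s f) b / h (s f) f)).smul (by
          simp [k.ee, k.aa, k.ea, symm0 k.ea]) (h (s f) f)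
    simpa using h2.map hM (p.tp.tsA _ h1 _ h1) (inv_mem hsM)
  refine hne (k.SU_le hM hX Xf (fun l => ?_) fun l => ⟨0, p.E_mem he (B.smul_mem l hb) (by
    simp [symm0 k.eb])⟩)
  simpa [smul_smul, mul_div_cancel₀, del_ne] using smul_mem_ME_of_X k.ee (w := (l / del F) • a)
    (by simp [k.aa]) (by simp [symm0 k.ea]) del_tr hX (Xa.smul k.aa _) (XA _)

theorem Gd.u0 (p : Gd h M A B) (p' : Gd h M A' B') (he : e ∈ A) (he' : e ∈ A') (e0 : e ≠ 0) :
    ∃ b ∈ B, b ∈ B' ∧ b ≠ 0 ∧ h e b = 0 := by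
  obtain ⟨f, hf, a, ha, b, hb, k⟩ := p.tp.exists_hb he e0
  obtain ⟨b', hb', b0, eb⟩ := p'.tp.exists_perp e
  have real : ∀ z : F, (∀ m : F, h.T e (m * z - star (m * z)) ∈ M) → z = 0 := fun z hz => by
    obtain ⟨θ, hθ⟩ := NStar.exists_ne (F := F)
    have h1 := p.T_zero hM hne he e0 (by simp) (hz 1)
    have h2 := p.T_zero hM hne he e0 (by simp) (hz θ)
    simp only [one_mul, star_mul'] at h1 h2
    exact mul_left_cancel₀ (sub_ne_zero.2 hθ) (by linear_combination star θ * h1 - h2)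
  have m1 : ∀ m : F, h.Ok e (m • b) 0 ∧ h.E e (m • b) 0 ∈ M := fun m =>
    p.E_mem he (B.smul_mem m hb) (by simp [symm0 k.eb])
  have m2 : ∀ m : F, h.Ok e (m • b') 0 ∧ h.E e (m • b') 0 ∈ M := fun m =>
    p'.E_mem he' (B'.smul_mem m hb') (by simp [symm0 eb])
  have h1 : h b' b = 0 := real _ fun m => by
    simpa using T_mem_of_ME (he := k.ee) ⟨0, m2 m⟩ ⟨0, m1 1⟩
  have h2 : h b' f = 0 := real _ fun m => by
    have h3 := mul_mem (m2 m).2 (m1 (-(m * h b' a))).2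
    rw [E_mul (m2 m).1 (m1 _).1, show m • b' + -(m * h b' a) • b = (m * h b' f) • e by
      have := k.span b'
      rw [symm0 eb, h1] at this
      linear_combination (norm := module) m • this, E_smul_self k.ee _ (by simp [symm0 h1])] at h3
    simpa [symm0 h1] using h3
  refine ⟨b', ?_, hb', b0, eb⟩
  rw [k.span b', symm0 eb, h1, h2]
  simpa using B.smul_mem _ hb

include hq

theorem Gd.u1 (p : Gd h M A B) (p' : Gd h M A' B') (he : e ∈ A) (he' : e ∈ A') (e0 : e ≠ 0)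
    (hb : b ∈ B) (hb' : b ∈ B') (b0 : b ≠ 0) (eb : h e b = 0) : B = B' := by
  obtain ⟨f, hf, ef⟩ := p.tp.partner he e0
  obtain ⟨a, ha, k⟩ := p.tp.hb he hf ef hb b0 eb
  obtain ⟨f', hf', ef'⟩ := p'.tp.partner he' e0
  have h1 := B'.sub_mem hf' (B'.smul_mem (h f' a) hb')
  rw [show f' - h f' a • b = f + h f' f • e by
    have := k.span f'
    rw [symm1 ef', p'.tp.tsB _ hf' _ hb'] at this
    linear_combination (norm := module) this] at h1
  generalize h f' f = r at h1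
  have hr : r + star r = 0 := by
    simpa [k.ff, k.ee, k.ef, symm1 k.ef, add_comm] using p'.tp.tsB _ h1 _ h1
  obtain ⟨t, t1, t0, t2⟩ := hq
  have e1 : h e (f + r • e) = 1 := by simp [k.ef, k.ee]
  have h2 := mul_mem (p'.D_mem he' h1 e1 t0 t1) (inv_mem (p.D_mem he hf ef t0 t1))
  have hr' : (1 - t * t) * r + star ((1 - t * t) * r) = 0 := by
    simp only [star_mul', star_sub, star_one, t1]; linear_combination (1 - t * t) * hr
  rw [show h.D e (f + r • e) t * (h.D e f t)⁻¹ = h.T e ((1 - t * t) * r) by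
    rw [mul_inv_eq_iff_eq_mul]
    ext x
    simp only [H5.U.mul_app, D_apply k.ee (p'.tp.tsB _ h1 _ h1) e1 t0, D_apply k.ee k.ff ef t0,
      T_apply k.ee hr', add_left, smul_left, add_right, smul_right, k.ee, symm1 ef, t1,
      eq_neg_of_add_eq_zero_right hr]
    match_scalars
    · rfl
    · field_simp; ring
    · field_simp] at h2
  have r0 : r = 0 := by
    simpa [sub_eq_zero, t2.symm] using p.T_zero hM hne he e0 hr' h2
  refine Submodule.eq_of_le_of_finrank_eq (fun x hx => ?_) (by rw [p.tp.rkB, p'.tp.rkB])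
  rw [k.span x, p.tp.tsB x hx f hf, p.tp.tsB x hx b hb]
  simpa using B'.add_mem (B'.smul_mem _ (by simpa [r0] using h1)) (B'.smul_mem _ hb')

theorem Gd.uniq (p : Gd h M A B) (p' : Gd h M A' B') (he : e ∈ A) (he' : e ∈ A') (e0 : e ≠ 0) :
    A = A' ∧ B = B' := by
  obtain ⟨b, hb, hb', b0, eb⟩ := p.u0 hM hne p' he he' e0
  exact ⟨p.symm.u1 hM hne hq p'.symm hb hb' b0 he he' e0 (symm0 eb), p.u1 hM hne hq p' he he' e0 hb hb' b0 eb⟩

theorem Gd.fix (p : Gd h M A B) (he : e ∈ A) (e0 : e ≠ 0) {k : V ≃ₗ[F] V} (hk : k ∈ M)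
    (ke : k e = e) : (∀ x ∈ A, k x ∈ A) ∧ ∀ x ∈ B, k x ∈ B := by
  obtain ⟨h1, h2⟩ := p.uniq hM hne hq (p.map hM hk) he ⟨e, he, ke⟩ e0
  exact ⟨fun x hx => h1.ge ⟨x, hx, rfl⟩, fun x hx => h2.ge ⟨x, hx, rfl⟩⟩

theorem Gd.meet (p : Gd h M A B) (p' : Gd h M A' B') :
    (A = A' ∧ B = B') ∨ (B = A' ∧ A = B') := by
  suffices ∃ u ∈ A', u ≠ 0 ∧ (u ∈ A ∨ u ∈ B) by
    obtain ⟨u, hu, u0, h1 | h1⟩ := this
    exacts [Or.inl (p.uniq hM hne hq p' h1 hu u0), Or.inr (p.symm.uniq hM hne hq p' h1 hu u0)]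
  by_contra! hc
  obtain ⟨u, hu, u0⟩ := exists_ne_zero_of_finrank (K := A') (by simp [p'.tp.rkA])
  obtain ⟨a, ha, b, hb, rfl⟩ := p.tp.dec u
  have a0 : a ≠ 0 := by rintro rfl; exact (hc _ hu u0).2 (by simpa using hb)
  have b0 : b ≠ 0 := by rintro rfl; exact (hc _ hu u0).1 (by simpa using ha)
  have aa := p.tp.tsA a ha a ha
  have bb := p.tp.tsB b hb b hb
  by_cases hab : h b a = 0
  · have key : ∀ m : F, (∀ x ∈ A', (m * h x a) • b - (star m * h x b) • a ∈ A') ∧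
        ∀ x ∈ B', (m * h x a) • b - (star m * h x b) • a ∈ B' := fun m => by
      obtain ⟨o, ho⟩ := p.E_mem ha (B.smul_mem m hb) (by simp [hab])
      obtain ⟨h1, h2⟩ := p'.fix hM hne hq hu u0 ho (E_apply_of_perp (by simp [aa, hab])
        (by simp [bb, symm0 hab]))
      refine ⟨fun x hx => ?_, fun x hx => ?_⟩
      · convert A'.sub_mem (h1 x hx) hx using 1
        simp only [E_apply o, smul_right]; module
      · convert B'.sub_mem (h2 x hx) hx using 1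
        simp only [E_apply o, smul_right]; module
    obtain ⟨θ, hθ⟩ := NStar.exists_ne (F := F)
    have h1 : ∀ x ∈ A', h x b = 0 := fun x hx => by
      by_contra h2
      refine (hc _ (A'.sub_mem (A'.smul_mem θ ((key 1).1 x hx)) ((key θ).1 x hx)) ?_).1 ?_ <;>
        rw [show θ • ((1 * h x a) • b - (star 1 * h x b) • a) - ((θ * h x a) • b -
          (star θ * h x b) • a) = ((star θ - θ) * h x b) • a by rw [star_one]; module]
      · simp [a0, h2, sub_ne_zero.2 hθ]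
      · exact A.smul_mem _ ha
    exact (hc b (p'.tp.mem_of_perp h1) b0).2 hb
  obtain ⟨b', hb', b0', h2⟩ := p.tp.exists_perp a
  obtain ⟨t, t1, t0, t2⟩ := hq
  obtain ⟨a₁, ha₁, k⟩ := p.tp.hb ha (B.smul_mem (h b a)⁻¹ hb) (by simp [symm_ne hab]) hb' b0' h2
  have h3 : h b a₁ = 0 := by simpa [hab] using k.fa
  obtain ⟨h4, -⟩ := p'.fix hM hne ⟨t, t1, t0, t2⟩ hu u0 (p.D_mem ha₁ hb' k.ab t0 t1) (by
    simp [D_apply k.aa k.bb k.ab t0, k.ea, k.eb, h3, p.tp.tsB b hb b' hb'])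
  simp only [D_apply k.aa k.bb k.ab t0, t1] at h4
  have t3 : t - 1 ≠ 0 := fun h => t2 (by rw [sub_eq_zero.1 h, one_mul])
  have t4 : t * t - 1 ≠ 0 := sub_ne_zero.2 t2
  have h5 : ∀ x ∈ A', h x b' = 0 := fun x hx => by
    by_contra h6
    have y1 := A'.sub_mem (h4 x hx) hx
    refine (hc a₁ ?_ (ne_zero_left (k.ab ▸ one_ne_zero))).1 ha₁
    rw [← A'.smul_mem_iff (mul_ne_zero (mul_ne_zero t4 t3) h6)]
    convert A'.sub_mem (A'.smul_mem t (h4 _ y1)) y1 using 1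
    simp only [add_left, sub_left, smul_left, k.aa, k.bb, k.ab, symm1 k.ab]
    match_scalars <;> field_simp <;> ring
  exact (hc b' (p'.tp.mem_of_perp h5) b0').2 hb'

end Main

theorem pair_core4 (p : TP h A B) (hq : ∃ t : F, star t = t ∧ t ≠ 0 ∧ t * t ≠ 1) (hM : M ≤ h.SU)
    (hH : ∀ g ∈ h.SU, PairStab A B g → g ∈ M) (hg : ∃ g ∈ M, ¬ PairStab A B g) : h.SU ≤ M := by
  obtain ⟨g, hgM, hg⟩ := hg
  by_contra hne
  have p' : Gd h M A B := ⟨p, hH⟩
  rcases p'.meet hM hne hq (p'.map hM hgM) with ⟨h1, h2⟩ | ⟨h1, h2⟩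
  · exact hg ⟨Or.inl fun x hx => h1.ge ⟨x, hx, rfl⟩, Or.inr fun x hx => h2.ge ⟨x, hx, rfl⟩⟩
  · exact hg ⟨Or.inr fun x hx => h1.ge ⟨x, hx, rfl⟩, Or.inl fun x hx => h2.ge ⟨x, hx, rfl⟩⟩

theorem TP.ne (p : TP h A B) : ∃ g ∈ h.SU, ¬ PairStab A B g := by
  obtain ⟨a, ha, ha0⟩ := exists_ne_zero_of_finrank (K := A) (by simp [p.rkA])
  obtain ⟨b, hb, hab⟩ := p.partner ha ha0
  have hbb := p.tsB b hb b hb
  refine ⟨h.T b (del F), T_mem_SU _ _, fun hg => ?_⟩
  rcases hg.1 with h1 | h1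
  · have := p.tsA a ha _ (h1 a ha)
    rw [T_apply hbb del_tr] at this
    simp [p.tsA a ha a ha, hab, del_ne] at this
  · have := p.tsB _ (h1 a ha) b hb
    rw [T_apply hbb del_tr] at this
    simp [hbb, hab] at this

theorem exists_real_not_mem {F : Type*} [Field F] [Fintype F] {q : ℕ} (hF : Fintype.card F = q ^ 2)
    (l : List F) (hq : l.length < q) : letI := powStar hF; ∃ t : F, star t = t ∧ t ∉ l := by
  let _ := powStar hF
  classical
  by_contra! h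
  have := Nat.card_le_card_of_injective (β := l.toFinset)
    (fun x : F0 F => ⟨x.1, by simpa using h x.1 x.2⟩) fun x y hxy => Subtype.ext (by simpa using hxy)
  rw [card_F0 hF, Nat.card_eq_fintype_card, Fintype.card_coe] at this
  have := l.toFinset_card_le
  omega

theorem pair_maximal4 {F : Type*} [Field F] [Fintype F] (q : ℕ) (hF : Fintype.card F = q ^ 2)
    (hq : 4 ≤ q) (D : Fin 2 → Submodule F (Fin 4 → F)) (hD : Geo.IsMDecomposition 2 D)
    (hts : ∀ i, Geo.IsTotallySingularFor (hermForm 4 F q) (D i)) :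
    Geo.IsMaximalIn (GU 4 F q ⊓ Geo.specialLinear (Fin 4) F)
      (Geo.decompositionStabilizer D ⊓ (GU 4 F q ⊓ Geo.specialLinear (Fin 4) F)) := by
  let _ := powStar hF
  have := powStar_nstar hF
  have p : TP (stdHF (Fin 4) F) (D 0) (D 1) := by
    refine ⟨hts 0, hts 1, fun x => ?_, hD.finrank_eq _, hD.finrank_eq _, by simp⟩
    have : x ∈ D 0 ⊔ D 1 := by
      have h1 := hD.iSup_eq_top
      have h2 : iSup D ≤ D 0 ⊔ D 1 := iSup_le fun i => by fin_cases i <;> simp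
      exact h2 (h1 ▸ trivial)
    obtain ⟨a, ha, b, hb, rfl⟩ := Submodule.mem_sup.1 this
    exact ⟨a, ha, b, hb, rfl⟩
  obtain ⟨t, t1, t2⟩ := exists_real_not_mem hF [0, 1, -1] (by simp; omega)
  simp only [List.mem_cons, List.not_mem_nil, or_false, not_or] at t2
  exact isMaximalIn_of_core (LinearEquiv.refl F _) (stdHF (Fin 4) F) _ _ (mem_GU_iff hF 4)
    (HF.PairStab (D 0) (D 1)) (fun g _ => by
      rw [mem_decompositionStabilizer' hD]; simp [HF.PairStab, Fin.forall_fin_two, Fin.exists_fin_two])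
    p.ne fun M hM hH hg => pair_core4 p ⟨t, t1, t2.1, by simp [mul_self_eq_one_iff, t2]⟩ hM hH hg

end Cfsg.Agent.H9.U4
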