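import Cfsg.Agent.H9.U4.A
import Cfsg.Agent.H5.U.Frame4

/-! Frame stabilisers in `SU_4(q)`, part one. -/

set_option autoImplicit false
set_option linter.unusedSimpArgs false
set_option linter.unusedSectionVars false
set_option linter.unusedVariables false

namespace Cfsg.Agent.H9.U4

open Module Cfsg.Agent.H6 Cfsg.Agent.H5.U Cfsg.Agent.H5.U.HF

variable {F : Type*} {V : Type*} [Field F] [StarRing F] [AddCommGroup V] [Module F V]
  [NStar F] [Finite F] [FiniteDimensional F V] {h : H5.U.HF F V} {M : Subgroup (V ≃ₗ[F] V)}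
  {b : Fin 4 → V}

theorem SU_le_of_pt4 (f : h.Fr b M) (hq : ∃ t : F, star t = t ∧ t ≠ 0 ∧ t ≠ 1) {i j : Fin 4}
    (hij : i ≠ j) (p : h.Pt b M i j) : h.SU ≤ M := by
  have hb := f.onb
  have p' : ∀ i j, i ≠ j → h.Pt b M i j := fun k l hkl => f.pt_all hij p hkl
  obtain ⟨k, hk⟩ := exists_not_mem_list [i, j] (by simp)
  obtain ⟨l, hl⟩ := exists_not_mem_list [i, j, k] (by simp)
  simp only [List.mem_cons, List.not_mem_nil, or_false, not_or] at hk hl
  obtain ⟨s, hs0, hs⟩ := exists_norm' (t := (-1 : F)) (by simp) (by simp)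
  have h1 : (1 : F) * star 1 + s * star s = 0 := by simp [hs]
  have hu := (hb.wt2 hij 1 s).trans h1
  have hv := (hb.wt2 (Ne.symm hk.2) 1 s).trans h1
  have h2 := (p 1 s h1).map f.le hu (p' j k (Ne.symm hk.2) 1 s h1 _ del_tr)
  have hkl : k ≠ l := Ne.symm hl.2.2
  refine SU_le_of_two_planes (by simpa using hb.card) f.le (hb.ndOn_pair hij).1
    (hb.ndOn_pair hkl).1 (hb.ndOn_pair hij).2.ge (hb.ndOn_pair hkl).2.ge
    (hb.perp_pairs hk.1 hk.2 hl.1 hl.2.1) (fun g hg k' hk' hgk => ?_) hq (by rw [T_mem_GU, hu]) h2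
    (x := b i) (y := b k) (Submodule.subset_span (by simp))
    (by rw [T_apply hv del_tr]; simp [hb.self, hb.ne hij, hb.ne (Ne.symm hk.1)])
    (Submodule.subset_span (by simp))
    (by
      rw [T_apply hv del_tr]
      simp [hb.self, hb.ne hij, hb.ne hk.1, hb.ne hk.2, hb.ne (Ne.symm hk.1), hb.ne (Ne.symm hk.2),
        hs0, del_ne])
  have h4 := det_norm hg.1
  have h5 := (mem_SU.1 hgk).2
  rw [det_mul'] at h5
  set d := LinearMap.det (g : V →ₗ[F] V)
  have h6 : g * h.R (b i) (star d) ∈ M := f.SUW_pair hij p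
    ⟨(h.GUW _).mul_mem hg (R_mem_GUW (Submodule.subset_span (by simp)) _),
      mul_R_mem_SU hg.1 (by simp [hb.self])⟩
  have h7 : h.R (b k) d * k' ∈ M := f.SUW_pair hkl (p' k l hkl)
    ⟨(h.GUW _).mul_mem (R_mem_GUW (Submodule.subset_span (by simp)) _) hk',
      mem_SU.2 ⟨h.GU.mul_mem (R_mem_GU _ _) hk'.1, by
        rw [det_mul', det_R (by simp [hb.self]) h4, h5]⟩⟩
  have h8 := M.mul_mem (M.mul_mem h6 (f.rr_mem i k h4)) h7
  rwa [rr, ← mul_assoc, ← mul_assoc, mul_assoc g, HF.R_mul _ (norm_one_star h4) h4, mul_comm (star d),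
    h4, R_one, mul_one, mul_assoc g, HF.R_mul _ (norm_one_star h4) h4, mul_comm (star d),
    h4, R_one, mul_one] at h8

theorem SU_le_of_T4 (f : h.Fr b M)
    (hq : ∃ t : F, star t = t ∧ t ≠ 0 ∧ t ≠ 1) {u : V} (huu : h u u = 0) {d : F} (hd0 : d ≠ 0)
    (hd : d + star d = 0) (hT : h.T u d ∈ M) {i k : Fin 4} (hk : h u (b k) = 0)
    (hi : h u (b i) ≠ 0)
    (h2 : (2 : F) ≠ 0 ∨ ((2 : F) = 0 ∧ d * (h u (b i) * h (b i) u) ≠ 1)) : h.SU ≤ M := by
  obtain ⟨i', j, hij, p⟩ := f.pt_of_X (ne_zero_left hi) huu (f.X_of_T huu hd0 hd hT hk hi h2) hk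
  exact SU_le_of_pt4 f hq hij p

theorem SU_le_of_plane4 (f : h.Fr b M) (h2 : (2 : F) ≠ 0) {j k : Fin 4}
    (hjk : j ≠ k) {v : V} (hv : h v v = 1) (hvk : h v (b k) = 0)
    (hR : ∀ l : F, l * star l = 1 → h.rr v (b k) l ∈ M) (h0 : h v (b j) ≠ 0)
    (h1 : h (b j) v * h v (b j) ≠ 1) : h.SU ≤ M := by
  have hb := f.onb
  have h0' := symm_ne h0
  obtain ⟨l, m, n, hl, hm, hn, hl1, htr, hdet⟩ := exists_parabolic h2
    (κ := h (b j) v * h v (b j)) (by simp [mul_comm]) (mul_ne_zero h0' h0) h1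
  set ρ := h.rr v (b k) l * h.rr (b j) (b k) m with hρ
  have hρM : ρ ∈ M := M.mul_mem (hR l hl) (f.rr_mem j k hm)
  have hρG := (f.le hρM).1
  have hap : ∀ x, ρ x = x + ((m - 1) * h x (b j)) • b j +
      ((l - 1) * (h x v + (m - 1) * h x (b j) * h (b j) v)) • v +
      ((star l * star m - 1) * h x (b k)) • b k := by
    intro x
    rw [hρ, mul_app, rr_apply hv (hb.self k) (symm0 hvk) hl,
      rr_apply (hb.self j) (hb.self k) (hb.ne hjk.symm) hm]
    simp [symm0 hvk, hb.self, hb.ne hjk]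
    module
  have hm0 := ne_zero_of_norm_one hm
  have hn0 := ne_zero_of_norm_one hn
  set u := (m - n) • b j + (m * (l - 1) * h (b j) v) • v with hu
  have he : ρ (b j) = n • b j + u := by
    rw [hap]; simp [hb.self, hb.ne hjk, hu]; module
  have hρu : ρ u = n • u := by
    rw [hap]
    simp only [hu, add_left, smul_left, hb.self, hb.ne hjk, hv, hvk]
    match_scalars
    · linear_combination hdet - m * htr
    · linear_combination (-m * (l - 1) * h (b j) v) * htr
    · ring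
  have huu : h u u = 0 := by
    have h3 := hρG (b j) u
    rw [he, hρu] at h3
    simp only [add_left, smul_left, smul_right] at h3
    apply mul_left_cancel₀ (star_ne_zero' hn0)
    linear_combination h3 - h (b j) u * hn
  have hc : m * (l - 1) * h (b j) v ≠ 0 := mul_ne_zero (mul_ne_zero hm0 (sub_ne_zero.2 hl1)) h0'
  have hperp : ∀ x, h x (b j) = 0 → h x u = 0 → h x v = 0 := by
    intro x h3 h4
    rw [hu, add_right, smul_right, smul_right, h3, mul_zero, zero_add] at h4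
    exact (mul_eq_zero.1 h4).resolve_left (star_ne_zero' hc)
  have heu : h (b j) u ≠ 0 := by
    intro h3
    have h4 := hperp u (symm0 h3) huu
    have h6 := symm0 h3
    simp only [hu, add_left, smul_left, hb.self, hv] at h4 h6
    apply hc
    apply mul_right_cancel₀ (sub_ne_zero.2 h1)
    linear_combination h (b j) v * h6 - h4
  obtain ⟨N, hN1, hN2⟩ := exists_pow_eq_one F
  have hp1 : ∀ t : ℕ, (ρ ^ t) u = n ^ t • u := fun t => by
    induction t with
    | zero => simp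
    | succ t ih => rw [pow_succ', mul_app, ih, map_smul, hρu, smul_smul, pow_succ]
  have hp2 : ∀ t : ℕ, (ρ ^ t) (b j) = n ^ t • b j + (t * n ^ t * n⁻¹) • u := fun t => by
    induction t with
    | zero => simp
    | succ t ih =>
      rw [pow_succ', mul_app, ih, map_add, map_smul, map_smul, hρu, he]
      clear_value u
      match_scalars
      · ring
      · field_simp; ring
  have hp3 : ∀ t : ℕ, ∀ x, h x (b j) = 0 → h x v = 0 →
      (ρ ^ t) x = x + (((star l * star m) ^ t - 1) * h x (b k)) • b k := fun t x h3 h4 => by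
    induction t with
    | zero => simp
    | succ t ih =>
      rw [pow_succ', mul_app, ih, hap]
      simp [h3, h4, hb.self, hb.ne hjk.symm, symm0 hvk]
      module
  obtain ⟨h3, h4⟩ := eq_T_of (h.GU.pow_mem hρG N) huu heu (γ := -n⁻¹)
    (by rw [hp2, hN1, hN2 n hn0]; simp) (by rw [hp1, hN2 n hn0, one_smul]) (fun x h3 h4 => by
      rw [hp3 N x h3 (hperp x h3 h4), hN2 _ (mul_ne_zero (star_ne_zero' (ne_zero_of_norm_one hl))
        (star_ne_zero' hm0))]; simp)
  have hq : ∃ t : F, star t = t ∧ t ≠ 0 ∧ t ≠ 1 :=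
    ⟨-1, by simp, by simp, fun h' => h2 (by linear_combination -h')⟩
  exact SU_le_of_T4 f hq huu (div_ne_zero (by simp [hn0]) heu) h3 (h4 ▸ M.pow_mem hρM N)
    (k := k) (by simp [hu, hvk, hb.ne hjk]) (symm_ne heu) (Or.inl h2)

theorem SU_le_of_good4 (f : h.Fr b M) (h2 : (2 : F) ≠ 0)
    {y : V ≃ₗ[F] V} (hy : y ∈ M) {k : Fin 4} {a : F} (hk : y (b k) = a • b k) (hm : ¬ Mono b y) :
    h.SU ≤ M := by
  have hb := f.onb
  have hy1 := (f.le hy).1
  obtain ⟨i, p, r, hpr, hp, hr⟩ := hb.exists_two_of_not_mono hm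
  have ha : a ≠ 0 := by
    rintro rfl
    have := hy1 (b k) (b k)
    simp [hk, hb.self] at this
  have hik : i ≠ k := by
    rintro rfl
    rw [hk, smul_left] at hp hr
    by_cases h3 : i = p
    · exact hr (by rw [hb.ne (h3 ▸ hpr), mul_zero])
    · exact hp (by rw [hb.ne h3, mul_zero])
  have h3 : h (y (b i)) (b k) = 0 := by
    have := hy1 (b i) (b k)
    rw [hk, smul_right, hb.ne hik] at this
    exact (mul_eq_zero.1 this).resolve_left (star_ne_zero' ha)
  have hpk : p ≠ k := by rintro rfl; exact hp h3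
  have hrk : r ≠ k := by rintro rfl; exact hr h3
  have hv : h (y (b i)) (y (b i)) = 1 := by rw [hy1, hb.self]
  have hR : ∀ l : F, l * star l = 1 → h.rr (y (b i)) (b k) l ∈ M := fun l hl => by
    have := conj_rr hy1 (b i) (b k) l
    rw [hk, rr_smul_right _ _ _ ha] at this
    rw [← this]
    exact M.mul_mem (M.mul_mem hy (f.rr_mem i k hl)) (M.inv_mem hy)
  by_cases h4 : h (b p) (y (b i)) * h (y (b i)) (b p) = 1
  swap; · exact SU_le_of_plane4 f h2 hpk hv h3 hR hp h4
  by_cases h6 : h (b r) (y (b i)) * h (y (b i)) (b r) = 1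
  swap; · exact SU_le_of_plane4 f h2 hrk hv h3 hR hr h6
  obtain ⟨l, hl, hl1, hl2⟩ := exists_norm_sub_ne h2
  have h7 := hR l hl
  have h8 : h.rr (y (b i)) (b k) l (b k) = star l • b k := by
    rw [rr_apply hv (hb.self k) (symm0 h3) hl]; simp [symm0 h3, hb.self]; module
  have h9 : h (h.rr (y (b i)) (b k) l (b p)) (b r) = (l - 1) * h (b p) (y (b i)) * h (y (b i)) (b r) := by
    rw [rr_apply hv (hb.self k) (symm0 h3) hl]; simp [hb.ne hpr, hb.ne hpk]
  refine SU_le_of_plane4 f h2 hrk (v := h.rr (y (b i)) (b k) l (b p)) (by rw [(f.le h7).1, hb.self])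
    ?_ (fun m hm => ?_) (by rw [h9]; exact mul_ne_zero (mul_ne_zero (sub_ne_zero.2 hl1) (symm_ne hp)) hr)
    ?_
  · rw [rr_apply hv (hb.self k) (symm0 h3) hl]; simp [hb.ne hpk, h3]
  · have := conj_rr (f.le h7).1 (b p) (b k) m
    rw [h8, rr_smul_right _ _ _ (star_ne_zero' (ne_zero_of_norm_one hl))] at this
    rw [← this]
    exact M.mul_mem (M.mul_mem h7 (f.rr_mem p k hm)) (M.inv_mem h7)
  · rw [← h.conj _ (b r), h9]
    simp only [star_mul', conj]
    intro h10
    apply hl2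
    linear_combination h10 - (l - 1) * star (l - 1) * (h (b r) (y (b i)) * h (y (b i)) (b r)) * h4 -
      (l - 1) * star (l - 1) * h6

end Cfsg.Agent.H9.U4
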