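import Cfsg.Agent.H9.U4.F1

/-! Frame stabilisers in `SU_4(q)`, part two: matrices with a zero entry. -/

set_option autoImplicit false
set_option linter.unusedSimpArgs false
set_option linter.unusedSectionVars false
set_option linter.unusedVariables false

namespace Cfsg.Agent.H9.U4

open Module Cfsg.Agent.H6 Cfsg.Agent.H5.U Cfsg.Agent.H5.U.HF

variable {F : Type*} {V : Type*} [Field F] [StarRing F] [AddCommGroup V] [Module F V]
  [NStar F] [Finite F] [FiniteDimensional F V] {h : H5.U.HF F V} {M : Subgroup (V ≃ₗ[F] V)}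
  {b : Fin 4 → V}

theorem diag4 (f : h.Fr b M) (τ : Fin 4 → F) (hτ : ∀ a, τ a * star (τ a) = 1)
    (hp : ∏ a, τ a = 1) : ∃ t ∈ M, (∀ x m, h (t x) (b m) = τ m * h x (b m)) ∧
      ∀ x y, h (t x) y = ∑ m, τ m * (h x (b m) * h (b m) y) := by
  obtain ⟨t, ht, ht'⟩ := f.exists_diag (e := id) Function.injective_id τ hτ hp
  have h1 : ∀ x m, h (t x) (b m) = τ m * h x (b m) := fun x m => by
    rw [ht', add_left]
    simp only [id]
    rw [f.onb.on.coeff]; ring
  exact ⟨t, ht, h1, fun x y => by rw [f.onb.form]; simp only [h1, mul_assoc]⟩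

theorem fix_or_perp (hb : h.ONB b) {g D : V ≃ₗ[F] V} (hg : g ∈ h.GU) (hm : Mono b (g⁻¹ * D * g))
    (i : Fin 4) : (∃ a : F, D (g (b i)) = a • g (b i)) ∨ h (D (g (b i))) (g (b i)) = 0 := by
  obtain ⟨n, c, hc⟩ := hm i
  have h1 : D (g (b i)) = c • g (b n) := by
    rw [← map_smul, ← hc, mul_app, mul_app, apply_inv_apply]
  by_cases hn : n = i
  · exact Or.inl ⟨c, hn ▸ h1⟩
  · exact Or.inr (by rw [h1, smul_left, hg, hb.ne hn, mul_zero])

theorem eq_smul_of_coord (hb : h.ONB b) {u : V} {a : Fin 4} (hu : ∀ m, m ≠ a → h u (b m) = 0) :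
    u = h u (b a) • b a := hb.ext fun m => by
  by_cases hm : m = a
  · simp [hm, hb.self]
  · simp [hu m hm, hb.ne (Ne.symm hm)]

/-- two zeros in a row force a monomial matrix -/
def TZ (h : H5.U.HF F V) (b : Fin 4 → V) (M : Subgroup (V ≃ₗ[F] V)) : Prop :=
  ∀ g ∈ M, ∀ i j k, i ≠ j → h (g (b i)) (b k) = 0 → h (g (b j)) (b k) = 0 → Mono b g

/-- a zero entry forces a monomial matrix -/
def OZ (h : H5.U.HF F V) (b : Fin 4 → V) (M : Subgroup (V ≃ₗ[F] V)) : Prop :=
  ∀ g ∈ M, ∀ i k, h (g (b i)) (b k) = 0 → Mono b g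

theorem perp_of_col (hb : h.ONB b) {g : V ≃ₗ[F] V} (hg : g ∈ h.GU) {i j k : Fin 4} {a : F}
    (hk : g (b i) = a • b k) (hj : j ≠ i) : h (g (b j)) (b k) = 0 := by
  have := hg (b j) (b i)
  rw [hk, smul_right, hb.ne hj] at this
  exact (mul_eq_zero.1 this).resolve_left (star_ne_zero' (hb.mono_ne hk))

theorem TZ.bad (f : h.Fr b M) (p : TZ h b M) : Bad b M := fun y hy k a hk => by
  obtain ⟨i, j, h1, h2, h3⟩ : ∃ i j : Fin 4, i ≠ j ∧ i ≠ k ∧ j ≠ k := by
    clear * -; revert k; decide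
  exact p y hy i j k h1 (perp_of_col f.onb (f.le hy).1 hk h2) (perp_of_col f.onb (f.le hy).1 hk h3)

theorem tz_odd (f : h.Fr b M) (h2 : (2 : F) ≠ 0) {s : F} (hs : s * star s = 1) (hs4 : s ^ 4 ≠ 1)
    (hB : Bad b M) : TZ h b M := by
  intro g hg i j k hij hi hj
  have hb := f.onb
  have hg1 := (f.le hg).1
  by_contra hne
  have pt : ∀ m a, ¬ ∀ n, n ≠ a → h (g (b m)) (b n) = 0 := fun m a hm =>
    hne (f.mono_of_point hB hg (eq_smul_of_coord hb hm))
  obtain ⟨a, ha⟩ := hb.exists_coord (u := g (b i)) (ne_zero_left (h := h) (y := g (b i)) (by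
    rw [hg1, hb.self]; exact one_ne_zero))
  obtain ⟨a', h3, ha'⟩ : ∃ a', a' ≠ a ∧ h (g (b i)) (b a') ≠ 0 := by
    by_contra! h0; exact pt i a h0
  have hak : a ≠ k := by rintro rfl; exact ha hi
  have hak' : a' ≠ k := by rintro rfl; exact ha' hi
  obtain ⟨c, hc1, hc2, hc3, hc⟩ : ∃ c, c ≠ a ∧ c ≠ a' ∧ c ≠ k ∧
      ∀ n, n = a ∨ n = a' ∨ n = c ∨ n = k := by
    clear * - h3 hak hak'
    fin_cases a <;> fin_cases a' <;> fin_cases k <;> simp at h3 hak hak' <;> decide
  obtain ⟨m, hm1, hm2⟩ : ∃ m : Fin 4, m ≠ i ∧ m ≠ j := by clear * -; revert i j; decide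
  have hp : ∀ e, h (g (b i)) (b e) ≠ 0 → h (g (b m)) (b e) = 0 := fun e he => by
    obtain ⟨s, t, hst⟩ := f.mem_span_of_perp h2 hB hg hij hi hj he
    rw [hst]; simp [hg1 _ _, hb.ne hm1, hb.ne hm2]
  have h4 : h (g (b m)) (b c) ≠ 0 := fun h0 => pt m k fun n hn => by
    rcases hc n with rfl | rfl | rfl | rfl
    exacts [hp _ ha, hp _ ha', h0, absurd rfl hn]
  have h5 : h (g (b i)) (b c) = 0 := by
    by_contra h0; exact h4 (hp c h0)
  have s0 := ne_zero_of_norm_one hs
  obtain ⟨D, hD, d1, d2⟩ := diag4 f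
    (fun n => if n = a then star s * star s else if n = a' then 1 else s)
    (fun n => by
      split_ifs
      · exact norm_one_mul (norm_one_star hs) (norm_one_star hs)
      · simp
      · exact hs)
    (by
      rw [← Finset.mul_prod_erase _ _ (Finset.mem_univ a),
        ← Finset.mul_prod_erase _ _ (show a' ∈ _ by simp [h3]), Finset.prod_congr rfl (g := fun _ => s)
        (fun n hn => by simp only [Finset.mem_erase] at hn; simp [hn.1, hn.2.1])]
      simp [h3, Finset.card_erase_of_mem]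
      linear_combination (s * star s + 1) * hs)
  have h6 : Mono b (g⁻¹ * D * g) := hB _ (M.mul_mem (M.mul_mem (M.inv_mem hg) hD) hg) m s (by
    rw [mul_app, mul_app, show D (g (b m)) = s • g (b m) from hb.ext fun n => by
      rcases hc n with rfl | rfl | rfl | rfl <;> simp [d1, hp _ ha, hp _ ha', hc1, hc2, hak.symm,
        hak'.symm], map_smul, inv_apply_apply])
  have h7 : star s * star s ≠ 1 := fun h0 => hs4 (by
    linear_combination (-s ^ 4 - s ^ 2) * h0 + (s * star s + 1) * (s ^ 2 + 1) * hs)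
  have h8 : star s * star s ≠ -1 := fun h0 => hs4 (by
    linear_combination (s ^ 4 - s ^ 2) * h0 - (s * star s + 1) * (s ^ 2 - 1) * hs)
  rcases fix_or_perp hb hg1 h6 i with ⟨α, h9⟩ | h9
  · have e1 := congrArg (fun x => h x (b a)) h9
    have e2 := congrArg (fun x => h x (b a')) h9
    simp only [d1, smul_left, if_true, h3, if_false] at e1 e2
    exact h7 ((mul_right_cancel₀ ha e1).trans (mul_right_cancel₀ ha' e2).symm)
  · rw [d2, ← Finset.add_sum_erase _ _ (Finset.mem_univ a),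
      ← Finset.add_sum_erase _ _ (show a' ∈ _ by simp [h3]), Finset.sum_eq_zero (fun n hn => by
        simp only [Finset.mem_erase] at hn
        rcases hc n with rfl | rfl | rfl | rfl
        exacts [absurd rfl hn.2.1, absurd rfl hn.1, by simp [h5], by simp [hi]])] at h9
    simp only [if_true, h3, if_false] at h9
    have e1 := congrArg star h9
    simp only [star_add, star_mul', conj, star_star, star_zero, star_one] at e1
    have e2 : star s * star s = s * s := mul_right_cancel₀ (mul_ne_zero ha (symm_ne ha))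
      (by linear_combination h9 - e1)
    have : (star s * star s - 1) * (star s * star s + 1) = 0 := by
      linear_combination (star s * star s) * e2 + (s * star s + 1) * hs
    rcases mul_eq_zero.1 this with h0 | h0
    · exact h7 (by linear_combination h0)
    · exact h8 (by linear_combination h0)

theorem mono_of_three (hb : h.ONB b) {g : V ≃ₗ[F] V} (hg : g ∈ h.GU) (n : Fin 4)
    (hn : ∀ m, m ≠ n → ∃ j, ∃ c : F, g (b m) = c • b j) : Mono b g := by
  by_contra hne
  obtain ⟨i, p, r, hpr, hp, hr⟩ := hb.exists_two_of_not_mono hne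
  have key : ∀ m j, ∀ c : F, g (b m) = c • b j → m ≠ i ∧ j ≠ p ∧ j ≠ r := fun m j c hm => by
    have : m ≠ i := by
      rintro rfl
      rw [hm, smul_left] at hp hr
      by_cases h3 : j = p
      · exact hr (by rw [hb.ne (h3 ▸ hpr), mul_zero])
      · exact hp (by rw [hb.ne h3, mul_zero])
    have h1 := perp_of_col hb hg hm this.symm
    exact ⟨this, by rintro rfl; exact hp h1, by rintro rfl; exact hr h1⟩
  obtain ⟨m₁, m₂, m₃, h1, h2, h3, h4, h5, h6⟩ : ∃ m₁ m₂ m₃ : Fin 4, m₁ ≠ n ∧ m₂ ≠ n ∧ m₃ ≠ n ∧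
      m₁ ≠ m₂ ∧ m₁ ≠ m₃ ∧ m₂ ≠ m₃ := by clear * -; revert n; decide
  obtain ⟨j₁, c₁, e₁⟩ := hn m₁ h1
  obtain ⟨j₂, c₂, e₂⟩ := hn m₂ h2
  obtain ⟨j₃, c₃, e₃⟩ := hn m₃ h3
  have k1 := key _ _ _ e₁
  have k2 := key _ _ _ e₂
  have k3 := key _ _ _ e₃
  have k4 : j₁ ≠ j₂ := fun h0 => h4 (hb.mono_inj e₁ (h0 ▸ e₂))
  have k5 : j₁ ≠ j₃ := fun h0 => h5 (hb.mono_inj e₁ (h0 ▸ e₃))
  have k6 : j₂ ≠ j₃ := fun h0 => h6 (hb.mono_inj e₂ (h0 ▸ e₃))
  omega

theorem tz_even (f : h.Fr b M) (h2 : (2 : F) = 0) (hq : ∃ t : F, star t = t ∧ t ≠ 0 ∧ t ≠ 1)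
    (hne : ¬ h.SU ≤ M) : TZ h b M := by
  have hb := f.onb
  intro g hg
  have hg1 := (f.le hg).1
  obtain ⟨n, o, hn, hn1, ho, ho1, hno⟩ := exists_two_tr hq
  have hn2 : star n ≠ n := fun h0 => hn1 (by
    have : (n - 1) ^ 2 = 0 := by linear_combination hn - n * h0 + (1 - n) * h2
    linear_combination pow_eq_zero_iff (two_ne_zero) |>.1 this)
  have hn3 : star n ≠ 1 := fun h0 => hn1 (by simpa using congrArg star h0)
  have ho2 : o ≠ n := by rintro rfl; exact hno rfl
  have ho3 : o ≠ star n := by rintro rfl; exact hno (by simp [mul_comm])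
  have key : ∀ i j k, i ≠ j → h (g (b i)) (b k) = 0 → h (g (b j)) (b k) = 0 →
      (∃ j, ∃ c : F, g (b i) = c • b j) ∨ ∃ i, ∃ c : F, g (b j) = c • b i := by
    intro i j k hij hi hj
    set u := g (b i) with hu
    set w := g (b j) with hw
    have k1 : ∀ l : F, l * star l = 1 → h (u + l • w) (u + l • w) = 0 ∧ u + l • w ≠ 0 ∧
        ∀ m, h (u + l • w) (b m) = 0 ∨ h (u + l • w) (b m) * h (b m) (u + l • w) = 1 := by
      intro l hl
      obtain ⟨h3, h4⟩ := f.T_wt2_mem h2 hij hl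
      have h5 : g (b i + l • b j) = u + l • w := by simp [hu, hw]
      have h6 : h (u + l • w) (u + l • w) = 0 := by rw [← h5, hg1, h3]
      have h7 : (1 : F) + star 1 = 0 := by simp; linear_combination h2
      refine ⟨h6, ne_zero_left (h := h) (y := u) (by simp [hu, hw, hg1 _ _, hb.self, hb.ne hij.symm]),
        fun m => ?_⟩
      by_contra! h8
      refine hne (SU_le_of_T4 f hq h6 one_ne_zero h7 ?_ (k := k) (by simp [hi, hj]) h8.1
        (Or.inr ⟨h2, by rw [one_mul]; exact h8.2⟩))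
      rw [← h5, ← conj_T hg1 h3 h7]
      exact M.mul_mem (M.mul_mem hg h4) (M.inv_mem hg)
    have k2 : ∀ l : F, l * star l = 1 → ∃ m, m ≠ k ∧ h u (b m) + l * h w (b m) = 0 := by
      intro l hl
      obtain ⟨h3, -, h4⟩ := k1 l hl
      by_contra! h5
      rw [hb.form, ← Finset.add_sum_erase _ _ (Finset.mem_univ k), Finset.sum_congr rfl (g := fun _ => 1)
        (fun m hm => (h4 m).resolve_left (by
          simpa using h5 m (Finset.mem_erase.1 hm).1))] at h3
      simp [hi, hj, Finset.card_erase_of_mem] at h3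
      exact one_ne_zero (α := F) (by linear_combination h3 - h2)
    obtain ⟨c, hck, hc1, hc2⟩ : ∃ c, c ≠ k ∧ h u (b c) = 0 ∧ h w (b c) = 0 := by
      have kill : ∀ m, ∀ l l' : F, l ≠ l' → m ≠ k → h u (b m) + l * h w (b m) = 0 →
          h u (b m) + l' * h w (b m) = 0 → ∃ c, c ≠ k ∧ h u (b c) = 0 ∧ h w (b c) = 0 := by
        intro m l l' hl hm e1 e2
        have : h w (b m) = 0 := mul_left_cancel₀ (sub_ne_zero.2 hl) (by linear_combination e1 - e2)
        exact ⟨m, hm, by simpa [this] using e1, this⟩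
      obtain ⟨m₁, a₁, e₁⟩ := k2 1 (by simp)
      obtain ⟨m₂, a₂, e₂⟩ := k2 n hn
      obtain ⟨m₃, a₃, e₃⟩ := k2 _ (norm_one_star hn)
      obtain ⟨m₄, a₄, e₄⟩ := k2 o ho
      rcases (show m₁ = m₂ ∨ m₁ = m₃ ∨ m₁ = m₄ ∨ m₂ = m₃ ∨ m₂ = m₄ ∨ m₃ = m₄ by omega) with
        rfl | rfl | rfl | rfl | rfl | rfl
      exacts [kill _ _ _ hn1 a₁ e₂ e₁, kill _ _ _ hn3 a₁ e₃ e₁, kill _ _ _ ho1 a₁ e₄ e₁,
        kill _ _ _ hn2 a₂ e₃ e₂, kill _ _ _ ho2 a₂ e₄ e₂, kill _ _ _ ho3 a₃ e₄ e₃]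
    obtain ⟨a, a', h3, h4, h5, h6, h7, h8⟩ : ∃ a a', a ≠ a' ∧ a ≠ c ∧ a ≠ k ∧ a' ≠ c ∧ a' ≠ k ∧
        ∀ m, m = a ∨ m = a' ∨ m = c ∨ m = k := by clear * - hck; revert c k; decide
    have k3 : ∀ l : F, l * star l = 1 → h (u + l • w) (b a) * h (b a) (u + l • w) = 1 := by
      intro l hl
      obtain ⟨e1, e2, e3⟩ := k1 l hl
      refine (e3 a).resolve_left fun e4 => ?_
      have e5 := eq_smul_of_coord hb (u := u + l • w) (a := a') fun m hm => by
        rcases h8 m with rfl | rfl | rfl | rfl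
        exacts [e4, absurd rfl hm, by simp [hc1, hc2], by simp [hi, hj]]
      rw [e5, smul_left, smul_right, hb.self, mul_one] at e1
      apply e2
      rw [e5, show h (u + l • w) (b a') = 0 by
        by_contra e6; exact norm_ne_zero e6 e1, zero_smul]
    have e1 := k3 1 (by simp)
    have e2 := k3 n hn
    have e3 := k3 _ (norm_one_star hn)
    simp only [add_left, add_right, smul_left, smul_right, star_one, star_star] at e1 e2 e3
    have e4 : h w (b a) * h (b a) u = 0 := by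
      apply mul_left_cancel₀ (mul_ne_zero (sub_ne_zero.2 hn2) (sub_ne_zero.2 hn2))
      linear_combination -((n - 1) * (e2 - e1) - (star n - 1) * (e3 - e1) -
        (n - star n) * (h w (b a) * h (b a) w) * hn) -
        (star n - n) * (n - 1) * (h w (b a) * h (b a) u) * h2
    rcases mul_eq_zero.1 e4 with e5 | e5
    · exact Or.inr ⟨a', _, eq_smul_of_coord hb fun m hm => by
        rcases h8 m with rfl | rfl | rfl | rfl
        exacts [e5, absurd rfl hm, hc2, hj]⟩
    · exact Or.inl ⟨a', _, eq_smul_of_coord hb fun m hm => by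
        rcases h8 m with rfl | rfl | rfl | rfl
        exacts [symm0 e5, absurd rfl hm, hc1, hi]⟩
  intro i j k hij hi hj
  obtain ⟨i, a, c, hc⟩ : ∃ i j, ∃ c : F, g (b i) = c • b j :=
    (key i j k hij hi hj).elim (fun e => ⟨_, e⟩) fun e => ⟨_, e⟩
  by_cases h3 : Mono b g
  · exact h3
  obtain ⟨n, hn⟩ := not_forall.1 h3
  have hni : n ≠ i := by rintro rfl; exact hn ⟨a, c, hc⟩
  refine mono_of_three hb hg1 n fun m hm => ?_
  by_cases hmi : m = i
  · exact ⟨a, c, hmi ▸ hc⟩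
  exact (key m n a hm (perp_of_col hb hg1 hc hmi) (perp_of_col hb hg1 hc hni)).resolve_right hn

theorem TZ.oz (f : h.Fr b M) (p : TZ h b M) {t : F} (ht : t * star t = 1) (ht4 : t ^ 4 ≠ 1) :
    OZ h b M := by
  intro g hg i k hi
  have hb := f.onb
  have hg1 := (f.le hg).1
  by_contra hne
  have h1 : ∀ j, j ≠ i → h (g (b j)) (b k) ≠ 0 := fun j hj h0 => hne (p g hg j i k hj h0 hi)
  obtain ⟨D, hD, d1, d2⟩ := diag4 f (fun n => if n = k then star t * star t * star t else t)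
    (fun n => by
      split_ifs
      · exact norm_one_mul (norm_one_mul (norm_one_star ht) (norm_one_star ht)) (norm_one_star ht)
      · exact ht)
    (by
      rw [← Finset.mul_prod_erase _ _ (Finset.mem_univ k), Finset.prod_congr rfl (g := fun _ => t)
        (fun n hn => by simp [(Finset.mem_erase.1 hn).1])]
      simp [Finset.card_erase_of_mem]
      linear_combination ((t * star t) ^ 2 + t * star t + 1) * ht)
  have h6 : Mono b (g⁻¹ * D * g) := p.bad f _ (M.mul_mem (M.mul_mem (M.inv_mem hg) hD) hg) i t (by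
    rw [mul_app, mul_app, show D (g (b i)) = t • g (b i) from hb.ext fun n => by
      by_cases hn : n = k <;> simp [d1, hn, hi], map_smul, inv_apply_apply])
  obtain ⟨j, m₁, m₂, e1, e2, e3, e4, e5, e6⟩ : ∃ j m₁ m₂ : Fin 4, j ≠ i ∧ m₁ ≠ i ∧ m₂ ≠ i ∧
      j ≠ m₁ ∧ j ≠ m₂ ∧ m₁ ≠ m₂ := by clear * -; revert i; decide
  obtain ⟨n, c, hc⟩ := h6 j
  have h7 : star t * star t * star t - t ≠ 0 := fun h0 => ht4 (by
    linear_combination (-t ^ 3) * h0 + ((t * star t) ^ 2 + t * star t + 1) * ht)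
  have key : ∀ m, m ≠ i → j ≠ m → n = m := fun m hm hjm => by
    by_contra h0
    have k1 := congrArg (fun x => h x (b m)) hc
    have k2 := hb.form (g (b j)) (g (b m))
    simp only [mul_app, smul_left, hb.ne h0, mul_zero] at k1
    rw [← GU_right hg1, d2, ← Finset.add_sum_erase _ _ (Finset.mem_univ k),
      Finset.sum_congr rfl (g := fun r => t * (h (g (b j)) (b r) * h (b r) (g (b m))))
        (fun r hr => by simp [(Finset.mem_erase.1 hr).1]), ← Finset.mul_sum] at k1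
    rw [hg1, hb.ne hjm, ← Finset.add_sum_erase _ _ (Finset.mem_univ k)] at k2
    simp only [if_true] at k1
    exact mul_ne_zero h7 (mul_ne_zero (h1 j e1) (symm_ne (h1 m hm))) (by
      linear_combination k1 + t * k2)
  exact e6 ((key _ e2 e4).symm.trans (key _ e3 e5))

end Cfsg.Agent.H9.U4
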