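import Cfsg.Agent.H9.U4.F2

/-! Frame stabilisers in `SU_4(q)`, part three: matrices without zero entries. -/

set_option autoImplicit false
set_option linter.unusedSimpArgs false
set_option linter.unusedSectionVars false
set_option linter.unusedVariables false

namespace Cfsg.Agent.H9.U4

open Module Cfsg.Agent.H6 Cfsg.Agent.H5.U Cfsg.Agent.H5.U.HF

variable {F : Type*} {V : Type*} [Field F] [StarRing F] [AddCommGroup V] [Module F V]
  [NStar F] [Finite F] [FiniteDimensional F V] {h : H5.U.HF F V} {M : Subgroup (V ≃ₗ[F] V)}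
  {b : Fin 4 → V}

/-- squares of real elements -/
def RS (x : F) : Prop := ∃ w : F, star w = w ∧ x = w * w

theorem RS.mul {x y : F} (hx : RS x) (hy : RS y) : RS (x * y) := by
  obtain ⟨u, h1, rfl⟩ := hx
  obtain ⟨w, h2, rfl⟩ := hy
  exact ⟨u * w, by simp [h1, h2], by ring⟩

theorem rs_of_not {x y : F} (hx : star x = x) (hy : star y = y) (h1 : ¬ RS y) (h2 : ¬ RS (x * y)) :
    RS x := by
  classical
  have := Fintype.ofFinite (F0 F)
  have key : ∀ z : F0 F, ¬ RS (z : F) → quadraticChar (F0 F) z = -1 := fun z hz =>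
    quadraticChar_neg_one_iff_not_isSquare.2 fun ⟨w, hw⟩ => hz ⟨w, w.2, congrArg Subtype.val hw⟩
  have e1 := key ⟨y, hy⟩ h1
  have e2 := key (⟨x, hx⟩ * ⟨y, hy⟩) h2
  rw [map_mul, e1] at e2
  have x0 : (⟨x, hx⟩ : F0 F) ≠ 0 := fun h0 => by rw [h0] at e2; simp at e2
  obtain ⟨w, hw⟩ := (quadraticChar_one_iff_isSquare x0).1 (by linear_combination -e2)
  exact ⟨w, w.2, congrArg Subtype.val hw⟩

theorem rs_of_two (h2 : (2 : F) = 0) {x : F} (hx : star x = x) : RS x := by
  have : CharP F 2 := CharTwo.of_one_ne_zero_of_two_eq_zero one_ne_zero h2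
  obtain ⟨w, rfl⟩ := FiniteField.isSquare_of_char_two (ringChar.eq F 2) x
  refine ⟨w, ?_, rfl⟩
  rw [star_mul'] at hx
  have : (star w - w) ^ 2 = 0 := by linear_combination hx + (w * w - w * star w) * h2
  linear_combination pow_eq_zero_iff (two_ne_zero) |>.1 this

theorem conic_count (h2 : (2 : F) ≠ 0) {r : F} (hr : star r = r) (r0 : r ≠ 0)
    (H : ∀ a : F, a * star a = 1 → ∃ w : F, star w = w ∧ w ≠ 0 ∧ w * w + r * (a + star a) ^ 2 = 1) :
    False := by
  classical
  obtain ⟨S, hS, hS'⟩ := card_normSet (F := F) 1 one_ne_zero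
  have key : ∀ x ∈ insert (0 : F) S, star x = x ∧
      ∃ w : F, star w = w ∧ w ≠ 0 ∧ w * w + r * (2 - x) ^ 2 = 1 := by
    intro x hx
    rcases Finset.mem_insert.1 hx with rfl | hx
    · simpa [one_add_one_eq_two] using H 1 (by simp)
    obtain ⟨l, h1, -, rfl⟩ := hS' x hx
    refine ⟨by rw [mul_one, star_norm], ?_⟩
    rw [show 2 - (l - 1) * star (l - 1) * 1 = l + star l by
      simp only [star_sub, star_one]; linear_combination -h1]
    exact H l h1
  have h0 : (0 : F) ∉ S := fun h0 => by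
    obtain ⟨l, -, h1, h3⟩ := hS' 0 h0
    exact norm_ne_zero (sub_ne_zero.2 h1) (by simpa using h3.symm)
  choose hx w w1 w0 hw using key
  let W : (insert (0 : F) S : Finset F) × Bool → F := fun p => if p.2 then w p.1 p.1.2 else -w p.1 p.1.2
  have W1 : ∀ p, star (W p) = W p := fun p => by simp only [W]; split_ifs <;> simp [w1]
  have W2 : ∀ p, W p * W p + r * (2 - p.1) ^ 2 = 1 := fun p => by
    simp only [W]; split_ifs <;> simp [hw]
  have W3 : ∀ p p', W p = W p' → (p.1 : F) = p'.1 → p = p' := by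
    rintro ⟨x, e⟩ ⟨x', e'⟩ h1 h3
    obtain rfl : x = x' := Subtype.ext h3
    have : ¬ w x x.2 = -w x x.2 := fun h4 => mul_ne_zero h2 (w0 x x.2) (by linear_combination h4)
    cases e <;> cases e'
    exacts [rfl, absurd h1.symm this, absurd h1 this, rfl]
  have := Nat.card_le_card_of_injective (β := Option (F0 F)) (fun p => if W p = 1 then none else
    some ⟨(2 - p.1) / (1 - W p), by rw [mem_F0]; simp [W1, hx _ p.1.2]⟩) (fun p p' hp => by
      simp only at hp
      split_ifs at hp with h3 h4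
      · refine W3 _ _ (h3.trans h4.symm) ?_
        have e1 := W2 p
        have e2 := W2 p'
        rw [h3] at e1; rw [h4] at e2
        have e3 : 2 - (p.1 : F) = 0 := by simpa [r0] using e1
        have e4 : 2 - (p'.1 : F) = 0 := by simpa [r0] using e2
        linear_combination e4 - e3
      · rename_i h4
        simp only [Option.some.injEq, Subtype.mk.injEq] at hp
        have k : ∀ p, W p ≠ 1 → W p * (1 + r * ((2 - p.1) / (1 - W p)) ^ 2) =
            r * ((2 - p.1) / (1 - W p)) ^ 2 - 1 := fun p hp => by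
          have : 1 - W p ≠ 0 := sub_ne_zero.2 (Ne.symm hp)
          field_simp
          linear_combination (W p - 1) * W2 p
        have e1 := k p h3
        have e2 := k p' h4
        rw [← hp] at e2
        have e3 : W p = W p' := by
          by_contra e4
          have e5 : 1 + r * ((2 - p.1) / (1 - W p)) ^ 2 = 0 :=
            mul_left_cancel₀ (sub_ne_zero.2 e4) (by linear_combination e1 - e2)
          rw [e5] at e1
          exact h2 (by linear_combination e1 + e5)
        refine W3 _ _ e3 ?_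
        rw [← e3, div_left_inj' (sub_ne_zero.2 (Ne.symm h3))] at hp
        linear_combination -hp)
  rw [Nat.card_prod, Finite.card_option, Nat.card_eq_fintype_card, Nat.card_eq_fintype_card,
    Fintype.card_coe, Finset.card_insert_of_notMem h0, Fintype.card_bool] at this
  omega

theorem exists_a4 (h5 : 4 < Nat.card (F0 F)) : ∃ a : F, a * star a = 1 ∧ a ^ 4 ≠ 1 := by
  classical
  obtain ⟨S, hS, hS'⟩ := card_normSet (F := F) 1 one_ne_zero
  by_contra! H
  have : S ⊆ {4, 2} := fun x hx => by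
    obtain ⟨l, h1, h2, rfl⟩ := hS' x hx
    have h3 : (l - 1) * ((l + 1) * (l ^ 2 + 1)) = 0 := by linear_combination H l h1
    have l0 := ne_zero_of_norm_one h1
    simp only [Finset.mem_insert, Finset.mem_singleton, star_sub, star_one]
    rcases mul_eq_zero.1 ((mul_eq_zero.1 h3).resolve_left (sub_ne_zero.2 h2)) with h4 | h4
    · left
      obtain rfl : l = -1 := by linear_combination h4
      simp; norm_num
    · right
      apply mul_left_cancel₀ l0
      linear_combination (l - 1) * h1 - h4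
  have := (Finset.card_le_card this).trans Finset.card_le_two
  omega

theorem exists_dt (f : h.Fr b M) : ∃ s ∈ M, ∀ x, h (s x) (b 0) = h x (b 1) ∧
    h (s x) (b 1) = h x (b 0) ∧ h (s x) (b 2) = h x (b 3) ∧ h (s x) (b 3) = h x (b 2) := by
  have hb := f.onb
  have key : ∀ i j : Fin 4, i ≠ j → ∃ s ∈ h.GU, Mono b s ∧ LinearMap.det (s : V →ₗ[F] V) = -1 ∧
      ∀ x, s x = x - h x (b i - b j) • (b i - b j) := by
    intro i j hij
    obtain ⟨s, hs, h1, h2, h3⟩ := hb.exists_transp hij
    have h4 : ∀ x, s x = x + (-h.lin (b i - b j)) x • (b i - b j) := fun x => by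
      have : (s : V →ₗ[F] V) = LinearMap.id + (-h.lin (b i - b j)).smulRight (b i - b j) :=
        hb.basis.ext fun m => by
          by_cases hi : m = i
          · simp [hi, h1, hb.self, hb.ne hij]
          by_cases hj : m = j
          · simp [hj, h2, hb.self, hb.ne hij.symm]
          simp [h3 m hi hj, hb.ne hi, hb.ne hj]
      simpa using LinearMap.congr_fun this x
    refine ⟨s, hs, fun m => ?_, ?_, fun x => by
      rw [h4, LinearMap.neg_apply, lin_apply, neg_smul]; exact (sub_eq_add_neg _ _).symm⟩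
    · by_cases hi : m = i
      · exact ⟨j, 1, by rw [hi, h1, one_smul]⟩
      by_cases hj : m = j
      · exact ⟨i, 1, by rw [hj, h2, one_smul]⟩
      exact ⟨m, 1, by rw [h3 m hi hj, one_smul]⟩
    · rw [det_of_apply h4]; simp [hb.self, hb.ne hij, hb.ne hij.symm]
  obtain ⟨s, s1, s2, s3, s4⟩ := key 0 1 (by decide)
  obtain ⟨t, t1, t2, t3, t4⟩ := key 2 3 (by decide)
  refine ⟨s * t, f.mono _ (mem_SU.2 ⟨h.GU.mul_mem s1 t1, by rw [det_mul', s3, t3]; simp⟩) (s2.mul t2),
    fun x => ?_⟩
  simp [mul_app, s4, t4, hb.on _ _]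

theorem exists_ta (f : h.Fr b M) {k l : Fin 4} (hkl : k ≠ l) {a : F} (ha : a * star a = 1) :
    ∃ t ∈ M, (∀ x m, h (t x) (b m) = (if m = k ∨ m = l then a else -star a) * h x (b m)) ∧
      ∀ x y, h (t x) y = (a + star a) * (h x (b k) * h (b k) y + h x (b l) * h (b l) y) -
        star a * h x y := by
  obtain ⟨t, ht, h1, h2⟩ := diag4 f (fun m => if m = k ∨ m = l then a else -star a)
    (fun m => by
      split_ifs
      · exact ha
      · simpa using norm_one_star ha)
    (by
      fin_cases k <;> fin_cases l <;> simp [Fin.prod_univ_four] at hkl ⊢ <;>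
        linear_combination (a * star a + 1) * ha)
  refine ⟨t, ht, h1, fun x y => ?_⟩
  rw [h2, f.onb.form x y]
  fin_cases k <;> fin_cases l <;> simp [Fin.sum_univ_four] at hkl ⊢ <;> ring

section NoZero

variable (f : h.Fr b M) (p : OZ h b M)
include f p

theorem ta_not_mono {g : V ≃ₗ[F] V} (hg : g ∈ M) (hm : ¬ Mono b g) {k l : Fin 4} {a : F}
    (ha : a + star a ≠ 0) {t : V ≃ₗ[F] V}
    (ht : ∀ x m, h (t x) (b m) = (if m = k ∨ m = l then a else -star a) * h x (b m))
    (hd : h (t (g (b 0))) (g (b 0)) ≠ 0) : ¬ Mono b (g⁻¹ * t * g) := fun hm' => by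
  obtain ⟨α, h1⟩ := (fix_or_perp f.onb (f.le hg).1 hm' 0).resolve_right hd
  obtain ⟨c, hc⟩ : ∃ c, ¬ (c = k ∨ c = l) := by clear * -; revert k l; decide
  have e1 := congrArg (fun x => h x (b k)) h1
  have e2 := congrArg (fun x => h x (b c)) h1
  simp only [ht, smul_left, true_or, if_true, hc, if_false] at e1 e2
  have := (mul_right_cancel₀ (fun h0 => hm (p g hg _ _ h0)) e1).trans
    (mul_right_cancel₀ (fun h0 => hm (p g hg _ _ h0)) e2).symm
  exact ha (by linear_combination this)

theorem not_rs {a : F} (ha : a * star a = 1) (ha4 : a ^ 4 ≠ 1) {g : V ≃ₗ[F] V} (hg : g ∈ M)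
    (hm : ¬ Mono b g) : ¬ RS (∏ m, h (g (b 0)) (b m) * h (b m) (g (b 0))) := by
  rintro ⟨w, hw, hw'⟩
  have hb := f.onb
  have hg1 := (f.le hg).1
  set y := g (b 0) with hy
  have y0 : ∀ m, h y (b m) ≠ 0 := fun m h0 => hm (p g hg _ _ h0)
  have y1 : ∀ m, h (b m) y ≠ 0 := fun m => symm_ne (y0 m)
  rw [Fin.prod_univ_four] at hw'
  have w0 : w ≠ 0 := by
    rintro rfl
    simp [y0, y1] at hw'
  obtain ⟨s, hs, hs'⟩ := exists_dt f
  obtain ⟨t, ht, t1, t2⟩ := exists_ta f (k := 0) (l := 1) (by decide) ha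
  have := y0 0; have := y0 1; have := y0 2; have := y0 3
  have := y1 0; have := y1 1; have := y1 2; have := y1 3
  obtain ⟨D, hD, d1, d2⟩ := diag4 f ![1, -(h y (b 1) * h (b 0) y) / (h y (b 0) * h (b 1) y),
      w / (h y (b 1) * h (b 0) y * (h y (b 3) * h (b 2) y)),
      -(w / (h y (b 1) * h (b 0) y * (h y (b 3) * h (b 2) y))) * (h y (b 3) * h (b 2) y) /
        (h y (b 2) * h (b 3) y)]
    (fun m => by
      fin_cases m <;> simp [hw] <;> field_simp <;> linear_combination -hw')
    (by simp [Fin.prod_univ_four]; field_simp; linear_combination -hw')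
  have key : ∀ z ∈ M, ∀ α β : F, (h (z y) (b 0) = α * h y (b 0)) → (h (z y) (b 1) = α * h y (b 1)) →
      (h (z y) (b 2) = β * h y (b 2)) → (h (z y) (b 3) = β * h y (b 3)) →
      Mono b (g⁻¹ * (D * s * z) * g) := fun z hz α β e0 e1 e2 e3 => by
    refine p _ (M.mul_mem (M.mul_mem (M.inv_mem hg) (M.mul_mem (M.mul_mem hD hs) hz)) hg) 0 0 ?_
    simp only [mul_app]
    rw [← GU_right hg1, ← hy, d2, Fin.sum_univ_four, (hs' _).1, (hs' _).2.1, (hs' _).2.2.1,
      (hs' _).2.2.2, e0, e1, e2, e3]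
    simp; field_simp; ring
  have k1 := key 1 M.one_mem 1 1 (by simp) (by simp) (by simp) (by simp)
  have k2 := key t ht a (-star a) (by simp [t1]) (by simp [t1]) (by simp [t1]) (by simp [t1])
  have a0 := ne_zero_of_norm_one ha
  refine ta_not_mono f p hg hm (fun h0 => ha4 ?_) t1 (fun h0 => ha4 ?_) ?_
  · linear_combination (a ^ 3 - a) * h0 - (a ^ 2 - 1) * ha
  · rw [t2, ← hy, show h y y = 1 by rw [hy, hg1, hb.self]] at h0
    have e := congrArg star h0
    simp only [star_sub, star_add, star_mul', conj, star_star, star_one, star_zero] at e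
    have : star a = a := by linear_combination e - h0
    rw [this] at ha
    linear_combination (a ^ 2 + 1) * ha
  · have := (hb.mono_inv k1).mul k2
    convert this using 1
    group

theorem pair_sum (h2 : (2 : F) ≠ 0) {a : F} (ha : a * star a = 1) (ha4 : a ^ 4 ≠ 1)
    {g : V ≃ₗ[F] V} (hg : g ∈ M) (hm : ¬ Mono b g) {k l : Fin 4} (hkl : k ≠ l) {P : F}
    (hP : P = h (g (b 0)) (b k) * h (b k) (g (b 0)) + h (g (b 0)) (b l) * h (b l) (g (b 0))) :
    P = 0 ∨ P = 1 ∨ 2 * P = 1 := by
  by_contra! H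
  obtain ⟨P0, P1, P2⟩ := H
  have hb := f.onb
  have hg1 := (f.le hg).1
  set y := g (b 0) with hy
  have hP1 : star P = P := by simp [hP, mul_comm]
  set Q : Fin 4 → F := fun i => h y (b k) * h (b k) (g (b i)) + h y (b l) * h (b l) (g (b i)) with hQ
  set C := Q 1 * star (Q 1) * (Q 2 * star (Q 2)) * (Q 3 * star (Q 3)) with hC
  have hC1 : star C = C := by simp only [hC, star_mul' _ (Q 3 * _), star_mul' _ (Q 2 * _), star_norm]
  have key : ∀ c : F, c * star c = 1 → c + star c ≠ 0 →
      (c + star c) * P - star c ≠ 0 ∧ ¬ RS ((1 - P * (1 - P) * (c + star c) ^ 2) * C) := by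
    intro c hc hc0
    obtain ⟨t, ht, t1, t2⟩ := exists_ta f hkl hc
    have e0 : h (t y) y = (c + star c) * P - star c := by
      rw [t2, hP, show h y y = 1 by rw [hy, hg1, hb.self], mul_one]
    have e1 : (c + star c) * P - star c ≠ 0 := fun h0 => by
      have e := congrArg star h0
      simp only [star_sub, star_add, star_mul', hP1, star_star, star_zero] at e
      have e' : star c = c := by linear_combination e - h0
      rw [e'] at h0
      exact P2 (mul_left_cancel₀ (ne_zero_of_norm_one hc) (by linear_combination h0))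
    refine ⟨e1, fun hR => not_rs f p ha ha4 (M.mul_mem (M.mul_mem (M.inv_mem hg) ht) hg)
      (ta_not_mono f p hg hm hc0 t1 (by rw [e0]; exact e1)) ?_⟩
    have e2 : ∀ i, h ((g⁻¹ * t * g) (b 0)) (b i) = h (t y) (g (b i)) := fun i => by
      rw [mul_app, mul_app, ← GU_right hg1]
    have e3 : ∀ i, i ≠ 0 → h (t y) (g (b i)) = (c + star c) * Q i := fun i hi => by
      rw [t2, hy, hg1, hb.ne hi.symm, mul_zero, sub_zero]
    have := hR.mul (⟨(c + star c) ^ 3, by simp [add_comm], rfl⟩ : RS ((c + star c) ^ 3 * (c + star c) ^ 3))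
    convert this using 1
    simp only [Fin.prod_univ_four, ← h.conj _ (b _), e2]
    rw [e3 1 (by decide), e3 2 (by decide), e3 3 (by decide), ← hy, e0, hC]
    simp only [star_mul', star_add, star_sub, star_star, hP1]
    linear_combination (c + star c) ^ 6 * (Q 1 * star (Q 1) * (Q 2 * star (Q 2)) * (Q 3 * star (Q 3))) * hc
  have hC2 : ¬ RS C := fun hR => (key 1 (by simp) (by simpa [one_add_one_eq_two] using h2)).2 (by
    refine RS.mul ⟨2 * P - 1, by simp [hP1], ?_⟩ hR
    simp; ring)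
  refine conic_count h2 (r := P * (1 - P)) (by simp [hP1]) (mul_ne_zero P0 (sub_ne_zero.2 P1.symm))
    fun c hc => ?_
  by_cases hc0 : c + star c = 0
  · exact ⟨1, by simp, one_ne_zero, by simp [hc0]⟩
  obtain ⟨k1, k2⟩ := key c hc hc0
  obtain ⟨w, w1, w2⟩ := rs_of_not (by simp [hP1, add_comm]) hC1 hC2 k2
  refine ⟨w, w1, ?_, by linear_combination -w2⟩
  rintro rfl
  apply norm_ne_zero k1
  simp only [star_mul', star_add, star_sub, star_star, hP1]
  linear_combination w2 + hc

theorem mono_odd (h2 : (2 : F) ≠ 0) {a : F} (ha : a * star a = 1) (ha4 : a ^ 4 ≠ 1)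
    {g : V ≃ₗ[F] V} (hg : g ∈ M) : Mono b g := by
  by_contra hm
  have hb := f.onb
  have hg1 := (f.le hg).1
  set y := g (b 0) with hy
  have hyy : h y y = 1 := by rw [hy, hg1, hb.self]
  set A : Fin 4 → F := fun m => h y (b m) * h (b m) y with hA
  have hs : A 0 + A 1 + A 2 + A 3 = 1 := by rw [← hyy, hb.form, Fin.sum_univ_four]
  obtain ⟨k, l, hkl, hP⟩ : ∃ k l, k ≠ l ∧ A k + A l = 0 := by
    rcases pair_sum f p h2 ha ha4 hg hm (k := 0) (l := 1) (by decide) (P := A 0 + A 1) rfl with
      e1 | e1 | e1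
    · exact ⟨0, 1, by decide, e1⟩
    · exact ⟨2, 3, by decide, by linear_combination hs - e1⟩
    rcases pair_sum f p h2 ha ha4 hg hm (k := 0) (l := 2) (by decide) (P := A 0 + A 2) rfl with
      e2 | e2 | e2
    · exact ⟨0, 2, by decide, e2⟩
    · exact ⟨1, 3, by decide, by linear_combination hs - e2⟩
    rcases pair_sum f p h2 ha ha4 hg hm (k := 0) (l := 3) (by decide) (P := A 0 + A 3) rfl with
      e3 | e3 | e3
    · exact ⟨0, 3, by decide, e3⟩
    · exact ⟨1, 2, by decide, by linear_combination hs - e3⟩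
    exfalso
    refine not_rs f p ha ha4 hg hm ⟨A 0 * A 0, by simp [hA, mul_comm], ?_⟩
    have k1 : A 2 = A 1 := mul_left_cancel₀ h2 (by linear_combination e2 - e1)
    have k2 : A 3 = A 1 := mul_left_cancel₀ h2 (by linear_combination e3 - e1)
    have k3 : A 1 = A 0 := by linear_combination hs - e1 - k1 - k2
    rw [Fin.prod_univ_four]
    change A 0 * A 1 * A 2 * A 3 = _
    rw [k1, k2, k3]; ring
  set Q : Fin 4 → F := fun i => h y (b k) * h (b k) (g (b i)) + h y (b l) * h (b l) (g (b i)) with hQ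
  have key : ∀ c : F, c * star c = 1 → c + star c ≠ 0 →
      (∀ i, i ≠ 0 → (c + star c) ^ 2 * (Q i * star (Q i)) = -1 ∨
        2 * ((c + star c) ^ 2 * (Q i * star (Q i))) = -1) ∧
      Q 1 * star (Q 1) + Q 2 * star (Q 2) + Q 3 * star (Q 3) = 0 := by
    intro c hc hc0
    obtain ⟨t, ht, t1, t2⟩ := exists_ta f hkl hc
    have e0 : h (t y) y = -star c := by
      rw [t2, hyy]; linear_combination (c + star c) * hP
    have hgM := M.mul_mem (M.mul_mem (M.inv_mem hg) ht) hg
    have hgm := ta_not_mono f p hg hm hc0 t1 (by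
      rw [e0]; exact neg_ne_zero.2 (star_ne_zero' (ne_zero_of_norm_one hc)))
    have e2 : ∀ i, h ((g⁻¹ * t * g) (b 0)) (b i) = h (t y) (g (b i)) := fun i => by
      rw [mul_app, mul_app, ← GU_right hg1]
    have e3 : ∀ i, i ≠ 0 → h (t y) (g (b i)) = (c + star c) * Q i := fun i hi => by
      rw [t2, hy, hg1, hb.ne hi.symm, mul_zero, sub_zero]
    refine ⟨fun i hi => ?_, ?_⟩
    · have e4 := pair_sum f p h2 ha ha4 hgM hgm hi.symm
        (P := 1 + (c + star c) ^ 2 * (Q i * star (Q i))) (by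
          simp only [← h.conj _ (b _), e2]
          rw [e3 i hi, ← hy, e0]
          simp only [star_mul', star_add, star_neg, star_star]
          linear_combination -hc)
      rcases e4 with e4 | e4 | e4
      · exact Or.inl (by linear_combination e4)
      · exfalso
        have e5 : (c + star c) * Q i ≠ 0 := fun h0 => hgm (p _ hgM 0 i (by rw [e2, e3 i hi, h0]))
        apply norm_ne_zero e5
        simp only [star_mul', star_add, star_star]
        linear_combination e4
      · exact Or.inr (by linear_combination e4)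
    · have e4 := hb.form ((g⁻¹ * t * g) (b 0)) ((g⁻¹ * t * g) (b 0))
      rw [(f.le hgM).1, hb.self] at e4
      simp only [Fin.sum_univ_four, ← h.conj _ (b _), e2] at e4
      rw [e3 1 (by decide), e3 2 (by decide), e3 3 (by decide), ← hy, e0] at e4
      simp only [star_mul', star_add, star_neg, star_star] at e4
      apply mul_left_cancel₀ (pow_ne_zero 2 hc0)
      linear_combination -e4 - hc
  have a0 := ne_zero_of_norm_one ha
  obtain ⟨k1, k2⟩ := key 1 (by simp) (by simpa [one_add_one_eq_two] using h2)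
  obtain ⟨k3, -⟩ := key a ha fun h0 => ha4 (by
    linear_combination (a ^ 3 - a) * h0 - (a ^ 2 - 1) * ha)
  have k4 : (a + star a) ^ 2 ≠ 4 := fun h0 => ha4 (by
    have : (a ^ 2 - 1) ^ 2 = 0 := by
      linear_combination a ^ 2 * h0 - (a * star a + 1 + 2 * a ^ 2) * ha
    have := pow_eq_zero_iff (two_ne_zero) |>.1 this
    linear_combination (a ^ 2 + 1) * this)
  set ξ := (a + star a) ^ 2 with hξ
  simp only [star_one] at k1
  have k5 : ∀ i, i ≠ 0 → (4 * (Q i * star (Q i)) = -1 ∧ ξ = 2) ∨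
      (8 * (Q i * star (Q i)) = -1 ∧ ξ = 8) := fun i hi => by
    have n0 : Q i * star (Q i) ≠ 0 := fun h0 => by
      rcases k1 i hi with e | e <;> simp [h0] at e
    rcases k1 i hi with e | e <;> rcases k3 i hi with e' | e'
    · exact absurd (mul_right_cancel₀ n0 (by linear_combination e' - e)) k4
    · exact Or.inl ⟨by linear_combination e, mul_right_cancel₀ (mul_ne_zero h2 n0)
        (by linear_combination e' - e)⟩
    · exact Or.inr ⟨by linear_combination e, mul_right_cancel₀ n0 (by linear_combination e' - e)⟩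
    · exact absurd (mul_right_cancel₀ (mul_ne_zero h2 n0) (by linear_combination e' - e)) k4
  have h3 : (3 : F) = 0 := by
    rcases k5 1 (by decide) with ⟨e1, e1'⟩ | ⟨e1, e1'⟩ <;>
      rcases k5 2 (by decide) with ⟨e2, e2'⟩ | ⟨e2, e2'⟩ <;>
      rcases k5 3 (by decide) with ⟨e3, e3'⟩ | ⟨e3, e3'⟩ <;>
      first
        | linear_combination e1 + e2 + e3 - 4 * k2
        | linear_combination e1 + e2 + e3 - 8 * k2
        | exact mul_left_cancel₀ h2 (by linear_combination e1' - e2')
        | exact mul_left_cancel₀ h2 (by linear_combination e2' - e1')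
        | exact mul_left_cancel₀ h2 (by linear_combination e1' - e3')
        | exact mul_left_cancel₀ h2 (by linear_combination e3' - e1')
  have k6 : ξ = 2 := (k5 1 (by decide)).elim (·.2) fun e => by linear_combination e.2 + 2 * h3
  have k7 : (a - star a - 1) * (a - star a + 1) = 0 := by
    linear_combination k6 - hξ - 4 * ha - h3
  rcases mul_eq_zero.1 k7 with e | e <;> have e' := congrArg star e <;>
    simp only [star_sub, star_add, star_star, star_one, star_zero] at e'
  · exact h2 (by linear_combination -e - e')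
  · exact h2 (by linear_combination e + e')

end NoZero

theorem core_F4 (f : h.Fr b M) (hq : ∀ t : F, star t = t → t = 0 ∨ t = 1)
    (hg : ∃ g ∈ M, ¬ Mono b g) : h.SU ≤ M := by
  obtain ⟨g, hg, hm⟩ := hg
  have hb := f.onb
  have hg1 := (f.le hg).1
  have h2 := two_eq_zero_of_F4 hq
  have hN : ∀ v n, h v (b n) ≠ 0 → h v (b n) * h (b n) v = 1 := fun v n hn => by
    simpa using norm_eq_one_of_F4 hq hn
  classical
  have iso : ∀ v, h v v = 0 → ∀ k, h v (b k) = 0 → v ≠ 0 → ∃ i j, i ≠ j ∧ ∀ m, m ≠ i → m ≠ j →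
      h v (b m) = 0 := by
    intro v hv k hk v0
    by_contra! H
    rw [hb.form, ← Finset.add_sum_erase _ _ (Finset.mem_univ k), Finset.sum_congr rfl (g := fun _ => 1)
      (fun m hm => hN v m fun h0 => by
        have hmk := (Finset.mem_erase.1 hm).1
        obtain ⟨i, j, h3, h4⟩ : ∃ i j : Fin 4, i ≠ j ∧ ∀ n, n ≠ i → n ≠ j → n = m ∨ n = k := by
          clear * - hmk; revert m k; decide
        obtain ⟨n, h5, h6, h7⟩ := H i j h3
        rcases h4 n h5 h6 with rfl | rfl
        exacts [h7 h0, h7 hk])] at hv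
    simp [hk, Finset.card_erase_of_mem] at hv
    exact one_ne_zero (α := F) (by linear_combination hv - h2)
  obtain ⟨v, hv, hX, hv4⟩ : ∃ v, h v v = 0 ∧ h.XIn M v ∧ ∀ m, h v (b m) ≠ 0 := by
    obtain ⟨i, a, c, hac, ha, hc⟩ := hb.exists_two_of_not_mono hm
    set u := g (b i) with hu
    have huu : h u u = 1 := by rw [hu, hg1, hb.self]
    obtain ⟨k, hk, hk'⟩ : ∃ k, h u (b k) = 0 ∧ ∀ m, m ≠ k → h u (b m) ≠ 0 := by
      obtain ⟨k, hk⟩ : ∃ k, h u (b k) = 0 := by
        by_contra! H
        rw [hb.form, Fin.sum_univ_four, hN _ _ (H 0), hN _ _ (H 1), hN _ _ (H 2), hN _ _ (H 3)] at huu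
        exact one_ne_zero (α := F) (by linear_combination 2 * h2 - huu)
      refine ⟨k, hk, fun m hm h0 => ?_⟩
      rw [hb.form, ← Finset.add_sum_erase _ _ (Finset.mem_univ a),
        ← Finset.add_sum_erase _ _ (show c ∈ _ by simp [hac.symm]), hN _ _ ha, hN _ _ hc,
        Finset.sum_eq_zero (fun n hn => by
          simp only [Finset.mem_erase] at hn
          have e1 : a ≠ k := by rintro rfl; exact ha hk
          have e2 : c ≠ k := by rintro rfl; exact hc hk
          have e3 : a ≠ m := by rintro rfl; exact ha h0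
          have e4 : c ≠ m := by rintro rfl; exact hc h0
          rcases (show n = k ∨ n = m by omega) with rfl | rfl <;> simp [hk, h0])] at huu
      exact one_ne_zero (α := F) (by linear_combination h2 - huu)
    obtain ⟨j, hj⟩ := (hb.map hg1).exists_coord (u := b k) (ne_zero_left (h := h) (y := b k)
      (by simp [hb.self]))
    have hij : i ≠ j := by rintro rfl; exact hj (symm0 hk)
    set w := g (b j) with hw
    have k1 : ∀ l : F, l * star l = 1 → h (u + l • w) (u + l • w) = 0 ∧ h.XIn M (u + l • w) := by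
      intro l hl
      obtain ⟨h3, h4⟩ := f.T_wt2_mem h2 hij hl
      have h5 : g (b i + l • b j) = u + l • w := by simp [hu, hw]
      exact ⟨by rw [← h5, hg1, h3], h5 ▸ (xIn_of_F4 hq h4).map f.le h3 hg⟩
    have k2 : ∀ l : F, l * star l = 1 → (∃ m, h (u + l • w) (b m) = 0) → ∃ m n, m ≠ n ∧ m ≠ k ∧
        n ≠ k ∧ h u (b m) + l * h w (b m) = 0 ∧ h u (b n) + l * h w (b n) = 0 := by
      rintro l hl ⟨m, hm⟩
      have h3 : h (u + l • w) (b k) ≠ 0 := by
        simp [hk, ne_zero_of_norm_one hl, symm_ne hj]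
      obtain ⟨r, s, hrs, h4⟩ := iso _ (k1 l hl).1 m hm (ne_zero_left h3)
      obtain ⟨m, n, h5, h6, h7, h8, h9⟩ : ∃ m n : Fin 4, m ≠ n ∧ m ≠ r ∧ m ≠ s ∧ n ≠ r ∧ n ≠ s := by
        clear * -; revert r s; decide
      refine ⟨m, n, h5, ?_, ?_, by simpa using h4 m h6 h7, by simpa using h4 n h8 h9⟩
      · rintro rfl; exact h3 (h4 _ h6 h7)
      · rintro rfl; exact h3 (h4 _ h8 h9)
    obtain ⟨ω, w1, w2⟩ := exists_omega_F4 hq
    have w3 : ω ≠ 1 := by rintro rfl; simp at w2
    by_cases e1 : ∃ m, h (u + (1 : F) • w) (b m) = 0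
    swap
    · push Not at e1; exact ⟨_, (k1 1 (by simp)).1, (k1 1 (by simp)).2, e1⟩
    by_cases e2 : ∃ m, h (u + ω • w) (b m) = 0
    swap
    · push Not at e2; exact ⟨_, (k1 ω w1).1, (k1 ω w1).2, e2⟩
    exfalso
    obtain ⟨m, n, a1, a2, a3, a4, a5⟩ := k2 1 (by simp) e1
    obtain ⟨m', n', b1, b2, b3, b4, b5⟩ := k2 ω w1 e2
    have kill : ∀ m, m ≠ k → h u (b m) + 1 * h w (b m) = 0 → h u (b m) + ω * h w (b m) = 0 → False := by
      intro m hm e1 e2
      have : h w (b m) = 0 := mul_left_cancel₀ (sub_ne_zero.2 w3) (by linear_combination e2 - e1)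
      exact hk' m hm (by simpa [this] using e1)
    rcases (show m = m' ∨ m = n' ∨ n = m' ∨ n = n' by omega) with rfl | rfl | rfl | rfl
    exacts [kill _ a2 a4 b4, kill _ a2 a4 b5, kill _ a3 a5 b4, kill _ a3 a5 b5]
  rw [← SUW_top]
  refine SUW_le_of_XIn ndOn_top (by simp [hb.card]) fun u _ huu => ?_
  by_cases u0 : u = 0
  · rw [u0]; exact xIn_zero
  by_cases h3 : ∃ k, h u (b k) = 0
  · obtain ⟨k, hk⟩ := h3
    obtain ⟨i, j, hij, h4⟩ := iso u huu k hk u0
    refine f.X_pair hij (f.pt_F4 hq (by simp) hij) u (Submodule.mem_span_pair.2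
      ⟨h u (b i), h u (b j), hb.ext fun m => ?_⟩) huu
    by_cases hi : m = i
    · simp [hi, hb.self, hb.ne hij.symm]
    by_cases hj : m = j
    · simp [hj, hb.self, hb.ne hij]
    simp [h4 m hi hj, hb.ne (Ne.symm hi), hb.ne (Ne.symm hj)]
  push Not at h3
  have cube : ∀ x : F, x ≠ 0 → x ^ 3 = 1 := fun x hx => by
    have e := norm_eq_one_of_F4 hq hx
    rcases hq (x + star x) (by simp [add_comm]) with e1 | e1
    · have : (x - 1) ^ 2 = 0 := by linear_combination x * e1 - e - x * h2
      have : x = 1 := by linear_combination pow_eq_zero_iff (two_ne_zero) |>.1 this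
      simp [this]
    · linear_combination (x - 1) * (x * e1 - e) + (x ^ 2 - x) * h2
  set δ := ∏ m, h u (b m) / h v (b m) with hδ
  have δ0 : δ ≠ 0 := Finset.prod_ne_zero_iff.2 fun m _ => div_ne_zero (h3 m) (hv4 m)
  obtain ⟨D, hD, d1, -⟩ := diag4 f (fun m => δ ^ 2 * (h u (b m) / h v (b m)))
    (fun m => norm_eq_one_of_F4 hq (mul_ne_zero (pow_ne_zero 2 δ0) (div_ne_zero (h3 m) (hv4 m))))
    (by
      rw [Finset.prod_mul_distrib, ← hδ]
      simp
      linear_combination (δ ^ 6 + δ ^ 3 + 1) * cube δ δ0)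
  have := (hX.map f.le hv hD).smul (by rw [(f.le hD).1, hv]) δ
  rwa [show δ • D v = u from hb.ext fun m => by
    have := hv4 m
    rw [smul_left, d1]; field_simp; linear_combination (h u (b m)) * cube δ δ0] at this

theorem frame_core4 (f : h.Fr b M) (h3 : Nat.card (F0 F) ≠ 3) (hg : ∃ g ∈ M, ¬ Mono b g) :
    h.SU ≤ M := by
  by_cases hq : ∃ t : F, star t = t ∧ t ≠ 0 ∧ t ≠ 1
  swap
  · refine core_F4 f (fun t ht => ?_) hg
    by_contra! h4
    exact hq ⟨t, ht, h4⟩
  obtain ⟨g, hg, hm⟩ := hg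
  by_contra hne
  by_cases h2 : (2 : F) = 0
  · obtain ⟨a, ha, ha1⟩ := exists_norm_one_ne_one F
    have ha4 : a ^ 4 ≠ 1 := fun h0 => ha1 (by
      have : (a - 1) ^ 4 = 0 := by linear_combination h0 + (-2 * a ^ 3 + 3 * a ^ 2 - 2 * a + 1) * h2
      linear_combination pow_eq_zero_iff (four_ne_zero) |>.1 this)
    exact not_rs f ((tz_even f h2 hq hne).oz f ha ha4) ha ha4 hg hm
      (rs_of_two h2 (by simp [Fin.prod_univ_four, mul_comm]))
  · have h5 : 4 < Nat.card (F0 F) := by
      have := Fintype.ofFinite (F0 F)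
      have h4 : ringChar (F0 F) ≠ 2 := fun h0 => h2 (by
        have : ((2 : ℕ) : F0 F) = 0 := (ringChar.spec _ 2).2 (by rw [h0])
        have := congrArg (F0 F).subtype this
        rwa [map_natCast, map_zero, Nat.cast_ofNat] at this)
      have h6 := FiniteField.odd_card_of_char_ne_two h4
      have h7 : 1 < Fintype.card (F0 F) := Fintype.one_lt_card
      rw [Nat.card_eq_fintype_card] at h3 ⊢
      omega
    obtain ⟨a, ha, ha4⟩ := exists_a4 h5
    have hB : Bad b M := fun y hy k c hk => by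
      by_contra h0
      exact hne (SU_le_of_good4 f h2 hy hk h0)
    exact hm (mono_odd f ((tz_odd f h2 ha ha4 hB).oz f ha ha4) h2 ha ha4 hg)

theorem frame_maximal4 {F : Type*} [Field F] [Fintype F] (q : ℕ) (hF : Fintype.card F = q ^ 2)
    (hq : q ≠ 3) (D : Fin 4 → Submodule F (Fin 4 → F))
    (hD : Geo.IsNondegenerateMDecomposition (hermForm 4 F q) 1 D) :
    Geo.IsMaximalIn (GU 4 F q ⊓ Geo.specialLinear (Fin 4) F)
      (Geo.decompositionStabilizer D ⊓ (GU 4 F q ⊓ Geo.specialLinear (Fin 4) F)) := by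
  let _ := powStar hF
  have := powStar_nstar hF
  obtain ⟨b, hb, hb'⟩ := (dec_of_decomp hF hD).exists_ONB
  exact isMaximalIn_of_core (LinearEquiv.refl F _) (stdHF (Fin 4) F) _ _ (mem_GU_iff hF 4)
    (HF.Mono b) (fun g _ => (mem_decompositionStabilizer' hD.decomp).trans (hb' _))
    (hb.exists_not_mono (by simp)) fun M hM hH hg =>
      frame_core4 ⟨hb, hM, hH⟩ (by rwa [card_F0 hF]) hg

end Cfsg.Agent.H9.U4
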