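import Cfsg.Agent.H9.U4.B
import Cfsg.Agent.H5.U.Six

/-! Maximal subgroups of `SU_4(q)`: orthogonal subfield subgroups, part one. -/

set_option autoImplicit false
set_option linter.unusedSimpArgs false
set_option linter.unusedSectionVars false
set_option linter.unusedVariables false

namespace Cfsg.Agent.H9.U4

open Module Cfsg.Agent.H6 Cfsg.Agent.H5.U Cfsg.Agent.H5.U.HF

variable {F : Type*} {V : Type*} [Field F] [StarRing F] [AddCommGroup V] [Module F V]
  [NStar F] [Finite F] [FiniteDimensional F V] {h : H5.U.HF F V} {M : Subgroup (V ≃ₗ[F] V)}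
  {cj : V →+ V}

theorem eq_zero_of_re_im (h2 : (2 : F) ≠ 0) {a b : F} (ha : star a = a) (hb : star b = b)
    (h0 : a + del F * b = 0) : a = 0 ∧ b = 0 := by
  have h1 := congrArg star h0
  simp only [star_add, star_mul', star_del, ha, hb, star_zero] at h1
  have : a = 0 := mul_left_cancel₀ h2 (by linear_combination h0 + h1)
  exact ⟨this, by simpa [this, del_ne] using h0⟩

theorem exists_nonroot (h2 : (2 : F) ≠ 0) (hq : ∃ t : F, star t = t ∧ t ≠ 0 ∧ t * t ≠ 1) {a : F}
    (ha : a ≠ 0) (b c : F) : ∃ r : F, star r = r ∧ r ≠ 0 ∧ a + b * r + c * r * r ≠ 0 := by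
  obtain ⟨t, t1, t0, t2⟩ := hq
  by_contra! hc
  have h1 := hc 1 (by simp) one_ne_zero
  have h3 := hc (-1) (by simp) (by simp)
  have h4 := hc t t1 t0
  exact mul_ne_zero (mul_ne_zero h2 ha) (sub_ne_zero.2 t2) (by
    linear_combination (t * t + t) * h1 + (t * t - t) * h3 - 2 * h4)

theorem rat_dec {ε : F} (c : h.Conj ε cj) {θ : F} (hθ : star θ ≠ θ) (u : V) :
    ∃ e w, cj e = e ∧ cj w = w ∧ u = e + θ • w := by
  have t0 := sub_ne_zero.2 hθ.symm
  have t1 := sub_ne_zero.2 hθ
  refine ⟨u - θ • (θ - star θ)⁻¹ • (u - cj u), (θ - star θ)⁻¹ • (u - cj u), ?_, ?_, by simp⟩ <;>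
    simp only [map_sub, c.smul, c.invol, star_inv₀, star_sub, star_star] <;> match_scalars <;>
    field_simp <;> ring

theorem comm_of_rat {ε : F} (c : h.Conj ε cj) {k : V ≃ₗ[F] V} (hk : ∀ x, cj x = x → cj (k x) = k x)
    (x : V) : cj (k x) = k (cj x) := by
  obtain ⟨θ, hθ⟩ := NStar.exists_ne (F := F)
  obtain ⟨e, w, he, hw, rfl⟩ := rat_dec c hθ x
  simp [c.smul, hk e he, hk w hw, he, hw]

/-- an orthogonal rational basis of a rational plane -/
structure RP2 (h : H5.U.HF F V) (cj : V →+ V) (W : Submodule F V) (x y : V) : Prop where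
  hx : x ∈ W
  hy : y ∈ W
  rx : cj x = x
  ry : cj y = y
  xx : h x x ≠ 0
  yy : h y y ≠ 0
  xy : h x y = 0
  span : ∀ z ∈ W, z = (h z x / h x x) • x + (h z y / h y y) • y

variable (c : h.Conj 1 cj) (h2 : (2 : F) ≠ 0)
include c h2

theorem rp2_of {W : Submodule F V} (hW : h.NdOn W) (hU : ∀ x ∈ W, cj x ∈ W) (hd : finrank F W = 2)
    {x : V} (hx : x ∈ W) (rx : cj x = x) (xx : h x x ≠ 0) : ∃ y, RP2 h cj W x y := by
  have h1 := finrank_inf_unit hx xx
  obtain ⟨y, hy, ry, yy⟩ := c.exists_rat_nonIso h2 (hW.inf_pv hx xx)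
    (fun z hz => ⟨hU z hz.1, c.pv_inv rx z hz.2⟩) (fun h0 => by rw [h0, finrank_bot] at h1; omega)
  have yx : h y x = 0 := hy.2
  refine ⟨y, hx, hy.1, rx, ry, xx, yy, symm0 yx, fun z hz => ?_⟩
  have h3 := finrank_inf_unit hy yy
  have h4 : W ⊓ h.pv x ⊓ h.pv y = ⊥ := Submodule.finrank_eq_zero.1 (by omega)
  refine sub_eq_zero.1 ((Submodule.mem_bot F).1 (h4 ▸ ⟨⟨W.sub_mem hz (W.add_mem (W.smul_mem _ hx)
    (W.smul_mem _ hy.1)), ?_⟩, ?_⟩)) <;> simp [yx, symm0 yx, xx, yy]

theorem exists_rp2 {W : Submodule F V} (hW : h.NdOn W) (hU : ∀ x ∈ W, cj x ∈ W)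
    (hd : finrank F W = 2) : ∃ x y, RP2 h cj W x y := by
  obtain ⟨x, hx, rx, xx⟩ := c.exists_rat_nonIso h2 hW hU (by rintro rfl; simp at hd)
  exact ⟨x, rp2_of c h2 hW hU hd hx rx xx⟩

theorem RP2.rep {W : Submodule F V} {x y : V} (p : RP2 h cj W x y) {t : F} (ht : star t = t) :
    ∃ w ∈ W, cj w = w ∧ h w w = t := by
  obtain ⟨a, b, hab⟩ := exists_sq_add_sq (F0 F) ⟨h x x, h.conj _ _⟩ ⟨h y y, h.conj _ _⟩
    (-⟨t, ht⟩) (fun h' => p.xx (congrArg Subtype.val h')) (fun h' => p.yy (congrArg Subtype.val h'))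
  have hab' := congrArg (fun z : F0 F => (z : F)) hab
  simp at hab'
  refine ⟨(a : F) • x + (b : F) • y, W.add_mem (W.smul_mem _ p.hx) (W.smul_mem _ p.hy),
    by simp [c.smul, p.rx, p.ry], ?_⟩
  simp [p.xy, symm0 p.xy]
  linear_combination hab'

theorem exists_rat_hyp {e : V} (he : cj e = e) (he0 : e ≠ 0) (hee : h e e = 0) :
    ∃ f, cj f = f ∧ h f f = 0 ∧ h e f = 1 := by
  obtain ⟨y₁, hy₁⟩ := h.exists_ne he0
  obtain ⟨y₁, -, hy₁, hy₁e⟩ := c.exists_rat_ne (U := ⊤) (fun _ _ => trivial) (φ := h.lin e)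
    (y := y₁) trivial hy₁
  obtain ⟨f, -, hf, hff, hef, -⟩ := c.exists_rat_partner h2 (U := ⊤) trivial trivial
      he hy₁ hee hy₁e
  exact ⟨f, hf, hff, hef⟩

variable (h4 : finrank F V = 4) (hq : ∃ t : F, star t = t ∧ t ≠ 0 ∧ t * t ≠ 1) (hM : M ≤ h.SU)
  (hH : ∀ g ∈ h.SU, ConjStab cj g → g ∈ M)
include h4 hq hM hH

theorem SU_le_of_X4 {e : V} (he : cj e = e) (he0 : e ≠ 0) (hee : h e e = 0) (hX : h.XIn M e) :
    h.SU ≤ M := by
  obtain ⟨f, hf, hff, hef⟩ := exists_rat_hyp c h2 he he0 hee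
  have hfe := symm1 hef
  have Xf := c.X_of_ne h2 (by omega) hM hH he hf hee hff (by simp [hef]) hX
  obtain ⟨x, y, p⟩ := exists_rp2 c h2 (ndOn_top.inf_pv₂ trivial trivial hee hff hef)
    (fun x hx => ⟨⟨trivial, c.pv_inv he x hx.1.2⟩, c.pv_inv hf x hx.2⟩) (by
      have := finrank_inf_hyp (h := h) (W := ⊤) trivial trivial hee hef
      rw [finrank_top] at this; omega)
  have hd := del_ne (F := F)
  obtain ⟨w, hw, rw', ww⟩ := p.rep c h2 (t := h x x / (del F * del F)) (by simp)
  have hE : ∀ v, cj v = v → h v e = 0 → h.Ok e v (h v v / 2) ∧ h.E e v (h v v / 2) ∈ M := fun v hv hve =>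
    ⟨(c.E_stab h2 he hv hee hve).1, hH _ (E_mem_SU _ _ _) (c.E_stab h2 he hv hee hve).2⟩
  have Xw : ∀ v, cj v = v → h v e = 0 → h v f = 0 → h.XIn M (f + v - (h v v / 2) • e) := fun v hv a b => by
    simpa [E_apply (hE v hv a).1, hfe, symm0 b] using Xf.map hM hff (hE v hv a).2
  have xe : h x e = 0 := p.hx.1.2
  have xf : h x f = 0 := p.hx.2
  have we : h w e = 0 := hw.1.2
  have wf : h w f = 0 := hw.2
  have wx := c.star_rat p.rx rw'
  have rB : star (h x w) = h x w := by rw [h.conj, wx]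
  have rN : star (h x x) = h x x := h.conj _ _
  obtain ⟨r, r1, r0, r2⟩ := exists_nonroot h2 hq p.xx (2 * h x w) (h w w)
  have ww' : h x x = del F * del F * h w w := by rw [ww]; field_simp
  have rW : star (h w w) = h w w := h.conj _ _
  have w0 : h w w ≠ 0 := fun h0 => p.xx (by simp [ww', h0])
  have n1 : h (x + r • w) (x + r • w) = h x x + 2 * h x w * r + h w w * r * r := by simp [wx, r1]; ring
  have X1 := Xw (x + r • w) (by simp [c.smul, r1, p.rx, rw']) (by simp [xe, we]) (by simp [xf, wf])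
  rw [n1] at X1
  have rn : star (h x x + 2 * h x w * r + h w w * r * r) = h x x + 2 * h x w * r + h w w * r * r := by
    rw [← n1, h.conj]
  generalize h x x + 2 * h x w * r + h w w * r * r = n at n1 X1 rn r2
  have i1 : h (f + (x + r • w) - (n / 2) • e) (f + (x + r • w) - (n / 2) • e) = 0 := by
    simp only [add_left (x := f), add_right (y := f), sub_left, sub_right, n1]
    simp [hff, hee, hef, hfe, xe, xf, we, wf, symm0 xe, symm0 xf, symm0 we, symm0 wf, rn, h2]
    field_simp; ring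
  have i2 : h (f + (x + r • w) - (n / 2) • e) f = -(n / 2) := by simp [hff, xf, wf, hef]
  have i3 : h f (f + (x + r • w) - (n / 2) • e) = -(n / 2) := by rw [← h.conj, i2]; simp [rn]
  have i4 : h ((1 : F) • f + (del F / r) • (f + (x + r • w) - (n / 2) • e))
      ((1 : F) • f + (del F / r) • (f + (x + r • w) - (n / 2) • e)) = 0 := by
    rw [add_left, add_right, add_right]
    simp only [smul_left, smul_right, i1, i2, i3, hff]
    simp [r1]; ring
  have X2 := XIn.line hM hff i1 (by simp [i2, r2, h2]) Xf X1 1 (del F / r) i4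
  have i5 : h (f + x - (h x x / 2) • e) (f + x - (h x x / 2) • e) = 0 := by
    simp [hff, hee, hef, hfe, xe, xf, symm0 xe, symm0 xf, h2]
    field_simp; ring
  have X3 := XIn.line hM i4 i5 (fun h0 => by
    have n2 : n = h x x + 2 * h x w * r + h w w * r * r := by rw [← n1]; simp [wx, r1]; ring
    simp [hff, hee, hef, hfe, xe, xf, symm0 xe, symm0 xf, symm0 wf, symm0 we, r1, rn] at h0
    exact p.xx (eq_zero_of_re_im h2 rN (b := -(h w w * r)) (by simp [r1]) (by
      rw [n2] at h0; field_simp at h0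
      exact mul_left_cancel₀ r0 (by linear_combination -h0))).1) X2 (Xw x p.rx xe xf) 1 (-(1 + del F / r))
  obtain ⟨κ, hκ⟩ : ∃ κ : F, (1 : F) • ((1 : F) • f + (del F / r) • (f + (x + r • w) - (n / 2) • e)) +
      -(1 + del F / r) • (f + x - (h x x / 2) • e) = del F • w - x + κ • e :=
    ⟨(1 + del F / r) * (h x x / 2) - del F / r * (n / 2), by match_scalars <;> field_simp <;> ring⟩
  rw [hκ] at X3
  have zz : h (del F • w - x) (del F • w - x) = 0 := by simp [wx]; linear_combination ww'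
  have i6 : h (del F • w - x + κ • e) (del F • w - x + κ • e) = 0 := by
    rw [add_left, add_right, add_right, zz]; simp [hee, xe, we, symm0 xe, symm0 we]
  replace X3 := X3 i6
  have k1 : h x x + del F * h x w ≠ 0 := fun h0 => p.xx (eq_zero_of_re_im h2 rN rB h0).1
  have hz : ∀ l : F, l • (del F • w - x) ∈ h.ME M e hee := fun l => by
    obtain ⟨s, t, hs, ht, h1⟩ := exists_coord (a := (h x w + del F * h w w) / (h x x + del F * h x w))
      (fun h0 => by
        have k2 := star_ne_zero' k1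
        simp only [star_div₀, star_add, star_mul', star_del, rB, rN, rW] at h0 k2
        rw [div_eq_div_iff k2 k1] at h0
        have h3 : (h x x + del F * h x w) * (h x x - del F * h x w) = 0 := mul_left_cancel₀
          (mul_ne_zero h2 hd) (by linear_combination -del F * del F * h0 + 2 * del F * h x x * ww')
        exact mul_ne_zero k1 (by simpa [sub_eq_add_neg] using k2) h3)
      (-l / (del F * (h x x + del F * h x w)))
    have a1 := T_sub_mem hM (he := hee) ⟨_, hE x p.rx xe⟩ i6 (by simp [hee, symm0 xe, symm0 we])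
      (c := s * del F) (by simp [hs]) (X3 _ (by simp [hs]))
    have a2 := T_sub_mem hM (he := hee) ⟨_, hE w rw' we⟩ i6 (by simp [hee, symm0 xe, symm0 we])
      (c := t * del F) (by simp [ht]) (X3 _ (by simp [ht]))
    convert sub_mem (add_mem a1 a2) (smul_self_mem_ME hee hX (l * κ)) using 1
    have : l = -(s * del F * (h x x + del F * h x w) + t * del F * (h x w + del F * h w w)) := by
      field_simp at h1; linear_combination -h1
    simp only [add_right, sub_right, smul_right, star_del, xe, we, wx, this]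
    module
  have k3 : h (del F • w - x) (cj (del F • w - x)) = 2 * (h x x + del F * -h x w) := by
    simp [c.smul, p.rx, rw', wx]; linear_combination -ww'
  have k4 : h (del F • w - x) (cj (del F • w - x)) ≠ 0 := k3 ▸ mul_ne_zero h2 fun h0 =>
    p.xx (eq_zero_of_re_im h2 rN (by simp [rB]) h0).1
  have ze : h (del F • w - x) e = 0 := by simp [xe, we]
  have zf : h (del F • w - x) f = 0 := by simp [xf, wf]
  generalize del F • w - x = z at zz hz k4 ze zf
  have k5 := c.perp_cj he (symm0 ze)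
  refine (hb_of h4 (a := z) (b := (star (h z (cj z)))⁻¹ • cj z) hee hff zz (by simp [c.form, zz]) hef
    (by simp [k4]) (symm0 ze) (by simp [k5]) (symm0 zf) (by simp [c.perp_cj hf (symm0 zf)])).SU_le hM hX
    Xf hz fun l => ?_
  have := sub_mem (⟨_, hE _ (c.add_cj (star (l * (star (h z (cj z)))⁻¹) • z)) (by
    simp [c.smul, ze, symm0 k5])⟩ : _ ∈ h.ME M e hee) (hz (star (l * (star (h z (cj z)))⁻¹)))
  rwa [add_sub_cancel_left, c.smul, star_star, mul_smul] at this

variable (hne : ¬ h.SU ≤ M)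
include hne

theorem T_eq_zero4 {e f : V} (he : cj e = e) (hf : cj f = f) (hee : h e e = 0) (hff : h f f = 0)
    (hef : h e f = 1) {d : F} (hd : d + star d = 0) (hT : h.T e d ∈ M) : d = 0 := by
  by_contra h0
  refine hne (SU_le_of_X4 c h2 h4 hq hM hH he (ne_zero_left (h := h) (hef ▸ one_ne_zero)) hee
    (X_of_T hM hee (fun m m0 hm => ⟨h.D e f m, hH _ (mem_SU.2 ⟨D_mem_GU hee hff hef m0, by
      rw [det_D hee hff hef m0, hm, mul_inv_cancel₀ m0]⟩) ⟨1, fun y hy => ?_⟩, ?_⟩) h0 hd hT)) <;>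
    rw [D_apply hee hff hef m0]
  · simp [c.smul, he, hf, hy, c.star_rat hy he, c.star_rat hy hf, hm]
  · simp [hee, hef]; module

theorem rat_of_fix4 {e : V} (he : cj e = e) (he0 : e ≠ 0) (hee : h e e = 0) {y : V ≃ₗ[F] V}
    (hy : y ∈ M) (hye : y e = e) : ∀ x, cj (y x) = y (cj x) := by
  refine comm_of_rat c ?_
  obtain ⟨f, hf, hff, hef⟩ := exists_rat_hyp c h2 he he0 hee
  have hfe := symm1 hef
  have hME : ∀ v, cj v = v → h v e = 0 → v ∈ h.ME M e hee := fun v hv hve =>
    ⟨_, (c.E_stab h2 he hv hee hve).1, hH _ (E_mem_SU _ _ _) (c.E_stab h2 he hv hee hve).2⟩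
  have key : ∀ t ∈ h.ME M e hee, cj (t - h t f • e) = t - h t f • e := by
    intro t ht
    have hte := ME_perp ht
    by_contra h0
    obtain ⟨z, hz⟩ := h.exists_ne (sub_ne_zero.2 h0)
    obtain ⟨z, -, hz, hz'⟩ := c.exists_rat_ne (U := ⊤) (fun _ _ => trivial) (φ := h.lin _)
      (y := z) trivial hz
    have h1 := T_eq_zero4 c h2 h4 hq hM hH hne he hf hee hff hef (by simp)
      (T_mem_of_ME ht (hME (z - h z e • f) (by simp [c.smul, hz, hf, c.star_rat hz he])
        (by simp [hfe])))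
    apply hz'
    rw [lin_apply, sub_right, ← h.conj (cj _), c.left, hz, one_mul, h.conj]
    simp only [sub_left, sub_right, smul_left, smul_right, conj, c.star_rat hz he, star_mul',
      star_one, star_sub, hte, symm0 hte, hef, hfe, hff] at h1 ⊢
    linear_combination h1
  have hy1 := (hM hy).1
  have h1 : h f e = h (y f) e := by conv_rhs => rw [← hye, hy1]
  obtain ⟨o, ho⟩ := E_trans hee (x := f) (y := y f) (by rw [hy1]) h1 (by simp [hfe])
  generalize (h f e)⁻¹ • (y f - f) = t at o ho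
  generalize -(h f e)⁻¹ * star (h f e)⁻¹ * (h f (y f) - h f f) = d at o ho
  have hk : (h.E e t d)⁻¹ * y ∈ h.SU := h.SU.mul_mem (h.SU.inv_mem (E_mem_SU _ _ _)) (hM hy)
  have k1 : ((h.E e t d)⁻¹ * y) e = e := by
    rw [H5.U.mul_app, hye]; apply (h.E e t d).injective; rw [apply_inv_apply, E_self o]
  have k2 : ((h.E e t d)⁻¹ * y) f = f := by rw [H5.U.mul_app, ← ho, inv_apply_apply]
  have k3 : ∀ x, cj x = x → cj (((h.E e t d)⁻¹ * y) x) = ((h.E e t d)⁻¹ * y) x := by
    intro x hx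
    set z := x - h x f • e - h x e • f with hz
    have z1 : cj z = z := by simp [hz, c.smul, hx, he, hf, c.star_rat hx he, c.star_rat hx hf]
    have z2 : h z e = 0 := by simp [hz, hee, hfe]
    have z3 : h z f = 0 := by simp [hz, hff, hef]
    have z4 := ME_map hM (hME z z1 z2) hy hye
    have z5 : ((h.E e t d)⁻¹ * y) z = y z - h (y z) f • e := by
      have e1 := hk.1 z f
      rw [k2, z3] at e1
      rw [H5.U.mul_app, E_inv o, E_apply_of_perp_left o.neg (ME_perp z4)] at e1 ⊢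
      simp only [sub_left, smul_left, hef, mul_one] at e1
      rw [sub_eq_zero.1 e1]
    have z6 : x = z + h x f • e + h x e • f := by rw [hz]; abel
    have z7 : ((h.E e t d)⁻¹ * y) x = y z - h (y z) f • e + h x f • e + h x e • f := by
      conv_lhs => rw [z6]
      rw [map_add, map_add, map_smul, map_smul, k1, k2, z5]
    rw [z7, map_add, map_add, key _ z4]
    simp [c.smul, he, hf, c.star_rat hx he, c.star_rat hx hf]
  have hE : h.E e t d ∈ M := by
    simpa using M.mul_mem hy (M.inv_mem (hH _ hk ⟨1, by simpa only [one_smul] using k3⟩))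
  have h3 := key t ⟨d, o, hE⟩
  have h4' : h (t - h t f • e) e = 0 := by simp [o.we, hee]
  obtain ⟨o', ho'⟩ := c.E_stab h2 he h3 hee h4'
  obtain ⟨d', hd', h6⟩ := E_eq_mul_T' o o' (a := h t f) (by abel)
  generalize t - h t f • e = v at h3 h4' o' ho' h6
  have h7 := T_eq_zero4 c h2 h4 hq hM hH hne he hf hee hff hef hd'
    ((M.mul_mem_cancel_left (hH _ (E_mem_SU _ _ _) ho')).1 (h6 ▸ hE))
  intro x hx
  rw [show y = h.E e t d * ((h.E e t d)⁻¹ * y) by simp, H5.U.mul_app, h6, h7, T_zero, mul_one,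
    E_apply o']
  have k4 := k3 x hx
  rw [h6, h7, T_zero, mul_one] at k4
  generalize ((h.E e v (h v v / 2))⁻¹ * y) x = x' at k4
  simp [c.smul, he, h3, k4, c.star_rat k4 he, c.star_rat k4 h3]

end Cfsg.Agent.H9.U4
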