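import Cfsg.Agent.H9.U4.O1

/-! Maximal subgroups of `SU_4(q)`: orthogonal subfield subgroups, part two. -/

set_option autoImplicit false
set_option linter.unusedSimpArgs false
set_option linter.unusedSectionVars false
set_option linter.unusedVariables false

namespace Cfsg.Agent.H9.U4

open Module Cfsg.Agent.H6 Cfsg.Agent.H5.U Cfsg.Agent.H5.U.HF

variable {F : Type*} {V : Type*} [Field F] [StarRing F] [AddCommGroup V] [Module F V]
  [NStar F] [Finite F] [FiniteDimensional F V] {h : H5.U.HF F V} {M : Subgroup (V ≃ₗ[F] V)}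
  {cj : V →+ V}

attribute [-simp] LinearEquiv.coe_inv

theorem det_real {r s t : Fin 4 → F} {A B : F} (hs : ∀ i, star (s i) = s i) (ht : ∀ i, star (t i) = t i)
    (h1 : (Matrix.of fun i => ![r i, A * r i + B * star (r i), s i, t i]).det = 1) : B + star B = 0 := by
  set X := (Matrix.of fun i => ![r i, star (r i), s i, t i]).det with hX
  have h2 : B * X = 1 := by
    rw [← h1, hX]; simp [Matrix.det_succ_row_zero, Fin.sum_univ_succ, Fin.succAbove]; ring
  have h3 : star X = -X := by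
    rw [hX]; simp [Matrix.det_succ_row_zero, Fin.sum_univ_succ, Fin.succAbove, hs, ht]; ring
  have h4 := congrArg star h2
  rw [star_mul', h3, star_one] at h4
  linear_combination -B * h4 - star B * h2

variable (c : h.Conj 1 cj) (h2 : (2 : F) ≠ 0) (h4 : finrank F V = 4)
include c h2 h4

theorem perp_plane {u : V} (uu : h u u = 0) (hb : h u (cj u) ≠ 0) :
    h.NdOn (⊤ ⊓ h.pv u ⊓ h.pv (cj u)) ∧ finrank F ↥(⊤ ⊓ h.pv u ⊓ h.pv (cj u)) = 2 := by
  have e : h.pv (cj u) = h.pv ((star (h u (cj u)))⁻¹ • cj u) := by ext x; simp [hb]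
  have e1 : h u ((star (h u (cj u)))⁻¹ • cj u) = 1 := by simp [hb]
  have := finrank_inf_hyp (h := h) (W := ⊤) trivial trivial uu e1
  rw [finrank_top, h4] at this
  rw [e]
  exact ⟨ndOn_top.inf_pv₂ trivial trivial uu (by simp [c.form, uu]) e1, by omega⟩

theorem RR_stab {x y : V} (hx : cj x = x) (hy : cj y = y) (xx : h x x ≠ 0) (yy : h y y ≠ 0) :
    h.R x (-1) * h.R y (-1) ∈ h.SU ∧ ConjStab cj (h.R x (-1) * h.R y (-1)) := by
  refine ⟨mem_SU.2 ⟨mul_mem (R_mem_GU _ _) (R_mem_GU _ _), ?_⟩, 1, fun z hz => ?_⟩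
  · rw [det_mul', det_R xx (by simp), det_R yy (by simp)]; simp
  · rw [one_smul, H5.U.mul_app]; exact c.R_rat hx (c.R_rat hy hz)

variable (hq : ∃ t : F, star t = t ∧ t ≠ 0 ∧ t * t ≠ 1) (hM : M ≤ h.SU)
  (hH : ∀ g ∈ h.SU, ConjStab cj g → g ∈ M) (hne : ¬ h.SU ≤ M) {g : V ≃ₗ[F] V} (hg : g ∈ M) {a : V}
  (ha : cj a = a) (a0 : a ≠ 0) (aa : h a a = 0)
include hq hM hH hne hg ha a0 aa

theorem rat_conj {k : V ≃ₗ[F] V} (hk : k ∈ h.SU ∧ ConjStab cj k) (hu : k (g a) = g a) (x : V) :
    cj (g⁻¹ (k (g x))) = g⁻¹ (k (g (cj x))) :=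
  rat_of_fix4 c h2 h4 hq hM hH hne ha a0 aa (mul_mem (mul_mem (inv_mem hg) (hH k hk.1 hk.2)) hg)
    (by simp [H5.U.mul_app, hu]) x

theorem beta_ne (hu : ∀ l : F, cj (g a) ≠ l • g a) : h (g a) (cj (g a)) ≠ 0 := fun hb => by
  have hg1 := (hM hg).1
  have uu : h (g a) (g a) = 0 := by rw [hg1, aa]
  have vv : h (cj (g a)) (cj (g a)) = 0 := by simp [c.form, uu]
  have hd := del_ne (F := F)
  have hd' : -del F + star (-del F) = 0 := by simp
  obtain ⟨b, hb'⟩ := g.surjective (cj (g a))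
  have k1 := rat_conj c h2 h4 hq hM hH hne hg ha a0 aa (k := h.T (g a) (del F) * h.T (cj (g a)) (-del F))
    ⟨mul_mem (T_mem_SU _ _) (T_mem_SU _ _), 1, fun x hx => by
      have e1 : h (g a) x = h x (cj (g a)) := by rw [← one_mul (h (g a) x), ← c.form, hx]
      have e2 : h (cj (g a)) x = h x (g a) := by rw [c.left, hx, one_mul]
      simp [H5.U.mul_app, T_apply uu del_tr, T_apply vv hd', symm0 hb, c.smul, hx, c.invol, e1, e2]
      abel⟩ (by rw [H5.U.mul_app, T_apply_of_perp hb, T_apply_of_perp uu])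
  simp only [H5.U.mul_app, T_apply uu del_tr, T_apply vv hd'] at k1
  simp only [← hb', hg1 _ _, map_add, map_smul, inv_apply_apply, add_left, smul_left] at k1
  have ba : h b a = 0 := by rw [← hg1, hb']; exact symm0 hb
  simp only [ba, mul_zero, add_zero, c.smul, ha] at k1
  have ind : ∀ l : F, b ≠ l • a := fun l hl => hu l (by rw [← hb', hl, map_smul])
  obtain ⟨z, z1, z2⟩ := exists_dual_pair' (h := h) ind 1
  obtain ⟨z, z1, rz, z2⟩ := c.exists_rat_ne (c.pv_inv ha) (φ := h.lin b) (y := z) (symm0 z1)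
    (by rw [lin_apply, symm1 z2]; exact one_ne_zero)
  replace z1 : h z a = 0 := z1
  replace z2 : h z b ≠ 0 := z2
  have k2 : cj ((-del F * h z b) • b) = (-del F * h z b) • b := by simpa [rz, z1, c.smul] using k1 z
  obtain ⟨y, y1, y2⟩ := exists_dual_pair' (h := h) (x := (-del F * h z b) • b) (w := a) (fun l hl => by
    have l0 : l ≠ 0 := by rintro rfl; simp [a0] at hl
    exact ind (l * (-del F * h z b))⁻¹ (by rw [hl, smul_smul, smul_smul]; simp [l0, hd, z2, mul_assoc])) 1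
  obtain ⟨y, y1, ry, y2⟩ := c.exists_rat_ne (c.pv_inv k2) (φ := h.lin a) (y := y) (symm0 y1)
    (by rw [lin_apply, symm1 y2]; exact one_ne_zero)
  replace y1 : h y b = 0 := by simpa [hd, symm_ne z2] using y1
  have k3 := k1 y
  simp [ry, y1, c.star_rat ry ha] at k3
  have k4 := smul_left_injective F a0 ((neg_smul _ a).trans k3)
  exact y2 (mul_left_cancel₀ (mul_ne_zero h2 hd) (by rw [lin_apply]; linear_combination -k4))

theorem pull_inv (hb : h (g a) (cj (g a)) ≠ 0) {z : V} (hz : g z ∈ ⊤ ⊓ h.pv (g a) ⊓ h.pv (cj (g a))) :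
    g (cj z) ∈ ⊤ ⊓ h.pv (g a) ⊓ h.pv (cj (g a)) := by
  have uu : h (g a) (g a) = 0 := by rw [(hM hg).1, aa]
  obtain ⟨k1, k2⟩ := perp_plane c h2 h4 uu hb
  obtain ⟨x, y, p⟩ := exists_rp2 c h2 k1 (c.inv_pv₂ (U := ⊤) (fun _ _ => trivial) _) k2
  generalize hW : ⊤ ⊓ h.pv (g a) ⊓ h.pv (cj (g a)) = W at *
  have e : ∀ v, (h.R x (-1) * h.R y (-1)) v = v - (2 : F) • ((h v x / h x x) • x + (h v y / h y y) • y) :=
    fun v => by
      simp [H5.U.mul_app, HF.R_apply p.xx, HF.R_apply p.yy, symm0 p.xy]; match_scalars <;> ring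
  have k3 := rat_conj c h2 h4 hq hM hH hne hg ha a0 aa (RR_stab c h2 h4 p.rx p.ry p.xx p.yy) (by
    rw [e, symm0 (hW.ge p.hx).1.2, symm0 (hW.ge p.hy).1.2]; simp) z
  rw [e, ← p.span _ hz, e, show g z - (2 : F) • g z = g (-z) by rw [map_neg]; module, inv_apply_apply,
    ← g.injective.eq_iff, apply_inv_apply, map_neg, map_neg] at k3
  rw [smul_right_injective V h2 (show (2 : F) • g (cj z) = (2 : F) • ((h (g (cj z)) x / h x x) • x +
    (h (g (cj z)) y / h y y) • y) by linear_combination (norm := module) -k3)]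
  exact W.add_mem (W.smul_mem _ p.hx) (W.smul_mem _ p.hy)

theorem exists_l (hb : h (g a) (cj (g a)) ≠ 0) : ∃ l : F, ∃ x y, RP2 h cj
    ((⊤ ⊓ h.pv (g a) ⊓ h.pv (cj (g a))).comap (g : V →ₗ[F] V)) x y ∧
    ∀ z, g z ∈ ⊤ ⊓ h.pv (g a) ⊓ h.pv (cj (g a)) → cj (g z) = l • g (cj z) := by
  have hg1 := (hM hg).1
  have uu : h (g a) (g a) = 0 := by rw [hg1, aa]
  obtain ⟨k1, k2⟩ := perp_plane c h2 h4 uu hb
  obtain ⟨x, y, p⟩ := exists_rp2 c h2 k1 (c.inv_pv₂ (U := ⊤) (fun _ _ => trivial) _) k2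
  have k3 := fun z => pull_inv c h2 h4 hq hM hH hne hg ha a0 aa hb (z := z)
  generalize hW : ⊤ ⊓ h.pv (g a) ⊓ h.pv (cj (g a)) = W at *
  obtain ⟨x', y', p'⟩ := exists_rp2 c h2 (W := W.comap (g : V →ₗ[F] V)) (fun w hw h0 => by
    simpa using k1 (g w) hw fun v hv => by
      rw [GU_right hg1]; exact h0 _ (by simpa using hv)) k3
    (by rw [Submodule.comap_equiv_eq_map_symm, LinearEquiv.finrank_map_eq, k2])
  obtain ⟨t, t1, t0, t2⟩ := exists_nonroot h2 hq p.xx 0 (h y y)
  have n3 : h (x + t • y) (x + t • y) = h x x + 0 * t + h y y * t * t := by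
    simp [p.xy, symm0 p.xy, t1]; ring
  have key : ∀ z, cj z = z → g z ∈ W → ∃ l : F, cj (g z) = l • g z := fun z rz hz => by
    have k4 := rat_conj c h2 h4 hq hM hH hne hg ha a0 aa (RR_stab c h2 h4 p.rx (y := x + t • y)
      (by simp [c.smul, p.rx, p.ry, t1]) p.xx (n3 ▸ t2)) (by
        have a1 : h (g a) x = 0 := symm0 (hW.ge p.hx).1.2
        have a2 : h (g a) y = 0 := symm0 (hW.ge p.hy).1.2
        rw [H5.U.mul_app, R_apply_of_perp (v := x + t • y) (by simp [a1, a2]), R_apply_of_perp a1]) z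
    rw [rz] at k4
    have k5 := c.star_rat rz k4
    rw [← GU_right hg1, ← GU_left hg1, p.span _ hz] at k5
    rw [p.span _ hz]
    generalize h (g z) x / h x x = α at k5 ⊢
    generalize h (g z) y / h y y = β at k5 ⊢
    have k6 : α * star β = star α * β := by
      rw [H5.U.mul_app, HF.R_apply (v := x + t • y) (n3 ▸ t2) (by simp), n3] at k5
      simp [HF.R_apply p.xx, p.xy, symm0 p.xy, t1] at k5
      have := p.xx
      rw [zero_mul, add_zero] at t2
      field_simp at k5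
      exact mul_left_cancel₀ (mul_ne_zero (mul_ne_zero (mul_ne_zero (mul_ne_zero (mul_ne_zero h2 h2) t0)
        p.xx) p.yy) (inv_ne_zero t2)) (by linear_combination -k5)
    simp only [map_add, c.smul, p.rx, p.ry]
    by_cases h0 : α = 0
    · refine ⟨star β / β, ?_⟩
      by_cases h1 : β = 0 <;> simp [h0, h1, smul_smul]
    · exact ⟨star α / α, by match_scalars <;> field_simp; linear_combination k6⟩
  obtain ⟨l, hl⟩ := key x' p'.rx p'.hx
  obtain ⟨m, hm⟩ := key y' p'.ry p'.hy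
  obtain ⟨n, hn⟩ := key (x' + y') (by rw [map_add, p'.rx, p'.ry]) (Submodule.add_mem _ p'.hx p'.hy)
  obtain rfl := eq_of_eig_add hl hm hn (ne_zero_left p'.xx) fun s hs => p'.yy (by
    simpa [hs, p'.xx] using p'.xy)
  refine ⟨l, x', y', p', fun z hz => ?_⟩
  rw [p'.span z hz]
  simp only [map_add, map_smul, c.smul, hl, hm, p'.rx, p'.ry]
  module

theorem beta_im {w : V} (rw' : cj w = w) (ww : h w w ≠ 0) (wa : h w a = 0) (gw : g w = w) :
    h (g a) (cj (g a)) + star (h (g a) (cj (g a))) = 0 := by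
  by_cases hb : h (g a) (cj (g a)) = 0
  · simp [hb]
  have hg1 := (hM hg).1
  have uu : h (g a) (g a) = 0 := by rw [hg1, aa]
  obtain ⟨l, x, y, p, hl⟩ := exists_l c h2 h4 hq hM hH hne hg ha a0 aa hb
  have w1 : h w (g a) = 0 := by rw [← gw, hg1, wa]
  obtain rfl : l = 1 := smul_left_injective F (ne_zero_left ww) (by
    simpa [gw, rw'] using (hl w ⟨⟨trivial, by simpa [gw] using w1⟩, by
      simpa [gw] using c.perp_cj rw' w1⟩).symm)
  have xa : h x a = 0 := by simpa [hg1 _ _] using p.hx.1.2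
  have ya : h y a = 0 := by simpa [hg1 _ _] using p.hy.1.2
  obtain ⟨f, hf, rf, fa⟩ := c.exists_rat_ne (U := h.pv x ⊓ h.pv y)
    (fun z hz => ⟨c.pv_inv p.rx z hz.1, c.pv_inv p.ry z hz.2⟩) (φ := h.lin a) (y := g⁻¹ (cj (g a)))
    ⟨by simpa [← GU_right hg1] using symm0 p.hx.2, by simpa [← GU_right hg1] using symm0 p.hy.2⟩
    (by simpa [← GU_right hg1] using symm_ne hb)
  replace fa : h f a ≠ 0 := fa
  have fx : h f x = 0 := hf.1
  have fy : h f y = 0 := hf.2
  have li : LinearIndependent F ![a, f, x, y] := by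
    refine Fintype.linearIndependent_iff.2 fun s hs => ?_
    simp only [Fin.sum_univ_four, Matrix.cons_val] at hs
    have e1 : s 1 = 0 := by simpa [aa, fa, xa, ya] using congrArg (h · a) hs
    have e2 : s 2 = 0 := by simpa [symm0 xa, fx, p.xx, symm0 p.xy] using congrArg (h · x) hs
    have e3 : s 3 = 0 := by simpa [symm0 ya, fy, p.yy, p.xy] using congrArg (h · y) hs
    have e0 : s 0 = 0 := by simpa [e1, e2, e3, a0] using hs
    intro i; fin_cases i <;> assumption
  let b := basisOfLinearIndependentOfCardEqFinrank li (by simp [h4])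
  have hb0 : ∀ i, b i = ![a, f, x, y] i := fun i => by simp [b]
  have hcj : ∀ v i, b.repr (cj v) i = star (b.repr v i) := fun v i => by
    conv_lhs => rw [← b.sum_repr v, map_sum]
    have : ∀ j, cj (b j) = b j := fun j => by rw [hb0]; fin_cases j <;> simp [ha, rf, p.rx, p.ry]
    simp [c.smul, this, Finsupp.single_apply]
  have gf : g f = (h (g f) (cj (g a)) / h (g a) (cj (g a))) • g a +
      (h f a / star (h (g a) (cj (g a)))) • cj (g a) := by
    have h5 := p.span (f - g⁻¹ ((h (g f) (cj (g a)) / h (g a) (cj (g a))) • g a +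
      (h f a / star (h (g a) (cj (g a)))) • cj (g a))) ⟨⟨trivial, by
        simp [hg1 _ _, aa, symm_ne hb]⟩, by simp [c.form, uu, hb]⟩
    have e1 : h (g⁻¹ (cj (g a))) x = 0 := by simpa [← GU_right hg1] using symm0 p.hx.2
    have e2 : h (g⁻¹ (cj (g a))) y = 0 := by simpa [← GU_right hg1] using symm0 p.hy.2
    simp [fx, fy, e1, e2, symm0 xa, symm0 ya, sub_eq_zero] at h5
    conv_lhs => rw [h5]
    simp
  have hd := (mem_SU.1 (hM hg)).2
  rw [← LinearMap.det_toMatrix b] at hd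
  have k := det_real (r := b.repr (g a)) (s := b.repr (g x)) (t := b.repr (g y))
    (fun i => by rw [← hcj, hl x p.hx, p.rx, one_smul]) (fun i => by rw [← hcj, hl y p.hy, p.ry, one_smul])
    (A := h (g f) (cj (g a)) / h (g a) (cj (g a))) (B := h f a / star (h (g a) (cj (g a))))
    (Eq.trans (congrArg Matrix.det (by
      ext i j
      rw [LinearMap.toMatrix_apply, hb0]
      fin_cases j
      · rfl
      · have := congrArg (b.repr · i) gf
        simpa [hcj] using this.symm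
      · rfl
      · rfl)) hd)
  have k1 := star_ne_zero' hb
  simp only [star_div₀, star_star, conj, c.star_rat rf ha] at k k1 ⊢
  field_simp at k
  exact mul_left_cancel₀ fa (by linear_combination k)

theorem o_contra (hu : ∀ l : F, cj (g a) ≠ l • g a) : False := by
  have hb := beta_ne c h2 h4 hq hM hH hne hg ha a0 aa hu
  have hg1 := (hM hg).1
  have uu : h (g a) (g a) = 0 := by rw [hg1, aa]
  obtain ⟨l, x, y, p, hl⟩ := exists_l c h2 h4 hq hM hH hne hg ha a0 aa hb
  obtain ⟨k1, k2⟩ := perp_plane c h2 h4 uu hb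
  have k0 := c.inv_pv₂ (U := ⊤) (fun _ _ => trivial) (g a)
  obtain ⟨x', y', p'⟩ := exists_rp2 c h2 k1 k0 k2
  have l1 : l * star l = 1 := by
    have := c.form (g x) (g x)
    rw [hl x p.hx, p.rx, smul_left, smul_right, hg1, one_mul] at this
    exact mul_right_cancel₀ p.xx (by linear_combination this)
  obtain ⟨n, n0, hn⟩ := exists_div_star (norm_one_star l1)
  have n1 := star_ne_zero' n0
  have hn' : l * n = star n := by field_simp at hn; linear_combination l * hn + star n * l1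
  have hd := del_ne (F := F)
  set u := g a with hu'
  set β := h u (cj u) with hβ
  have b1 : h (cj u) u = star β := by rw [hβ, conj]
  have b2 : h (cj u) (cj u) = 0 := by simp [c.form, uu]
  obtain ⟨t, t1, t2⟩ : ∃ t : F, star t = t ∧ (star n * (1 + t * del F)) ^ 2 * β +
      (n * (1 - t * del F)) ^ 2 * star β ≠ 0 := by
    by_contra! h0
    have e0 := h0 0 (by simp)
    have e1 := h0 1 (by simp)
    have e2 := h0 (-1) (by simp)
    exact mul_ne_zero (mul_ne_zero (mul_ne_zero (mul_ne_zero (mul_ne_zero h2 h2) h2) hd)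
      (pow_ne_zero 2 n1)) hb (by linear_combination e1 - e2 + 4 * del F * e0)
  set α := star n * (1 + t * del F) with hα
  have sα : star α = n * (1 - t * del F) := by simp [hα, t1, sub_eq_add_neg]
  rw [← sα] at t2
  obtain ⟨w, hw, rw', ww⟩ := p'.rep c h2 (t := -(α ^ 2 * β + star α ^ 2 * star β)) (by simp [add_comm])
  have w0 : h w w ≠ 0 := ww ▸ neg_ne_zero.2 t2
  obtain ⟨w', q⟩ := rp2_of c h2 k1 k0 k2 hw rw' w0
  have wu : h w u = 0 := hw.1.2
  have wv : h w (cj u) = 0 := hw.2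
  have ry : cj (g⁻¹ (n • w)) = g⁻¹ (n • w) := g.injective (smul_right_injective V (ne_zero_of_norm_one l1) (by
    simp only []
    rw [← hl _ (by simpa using Submodule.smul_mem _ n hw), apply_inv_apply, c.smul, rw', smul_smul, hn']))
  obtain ⟨o, ho⟩ := c.E_stab h2 ha ry aa (by rw [← GU_right hg1]; simp only [← hu', smul_left, wu, mul_zero])
  have hk := mul_mem (mul_mem hg (hH _ (E_mem_SU _ _ _) ho)) (inv_mem hg)
  have o' := o.map hg1
  rw [conj_E hg1 o] at hk
  rw [← hg1 (g⁻¹ _)] at hk o'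
  simp only [apply_inv_apply, ← hu'] at hk o'
  have key := fun (r : F) (r1 : star r = r) (r2 : r * r = 1) => beta_im c h2 h4 hq hM hH hne hk
    (a := α • u + star α • cj u + r • w) (by simp [c.smul, c.invol, rw', r1, add_comm])
    (ne_zero_left (h := h) (y := w) (by
      simp [symm0 wu, symm0 wv, w0, show r ≠ 0 by rintro rfl; simp at r2]))
    (by
      simp only [add_left, add_right, smul_left, smul_right, uu, b1, b2, ← hβ, wu, wv, symm0 wu,
        symm0 wv, r1, ww, star_star]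
      linear_combination -(α ^ 2 * β + star α ^ 2 * star β) * r2)
    q.ry q.yy (by simp [show h w' u = 0 from q.hy.1.2, show h w' (cj u) = 0 from q.hy.2, symm0 q.xy])
    (E_apply_of_perp q.hy.1.2 (by simp [symm0 q.xy]))
  have e1 := key 1 (by simp) (by simp)
  have e2 := key (-1) (by simp) (by simp)
  simp only [E_apply o'] at e1 e2
  simp only [map_add, map_sub, c.smul, c.invol, rw', add_left, sub_left, smul_left, add_right, sub_right,
    smul_right, uu, b1, b2, ← hβ, wu, wv, symm0 wu, symm0 wv, star_add, star_sub, star_mul', star_star,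
    star_zero, star_neg, star_one, star_div₀, conj, star_ofNat] at e1 e2
  obtain ⟨Q, hQ⟩ : ∃ Q, h w w = 2 * Q := ⟨h w w / 2, by field_simp⟩
  have e3 : ∀ x y : F, x * (y * (2 * Q)) / 2 = x * y * Q := fun x y => by field_simp
  simp only [hQ, e3, sα] at e1 e2 w0
  exact mul_ne_zero (mul_ne_zero (mul_ne_zero (pow_ne_zero 2 (mul_ne_zero h2 w0)) hb)
    (star_ne_zero' hb)) (pow_ne_zero 2 (mul_ne_zero n0 n1)) (by
      simp only [hα] at e1 e2; linear_combination e1 - e2)

omit hg ha a0 aa hne in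
theorem o_core4 (hg : ∃ g ∈ M, ¬ ConjStab cj g) : h.SU ≤ M := by
  by_contra hne
  obtain ⟨g, hgM, hg⟩ := hg
  obtain ⟨a, ha, haa, hga⟩ := c.exists_irrat h2 (by omega) (hM hgM).1 hg
  exact o_contra c h2 h4 hq hM hH hne hgM ha (by rintro rfl; exact hga 0 (by simp)) haa hga

omit hq hM hH hne hg ha a0 aa in
theorem o_ne4 : ∃ g ∈ h.SU, ¬ ConjStab cj g := by
  obtain ⟨e, -, he, he0, hee⟩ := c.exists_rat_iso (U := ⊤) (fun _ _ => trivial) (by simp; omega)
  refine ⟨_, T_mem_SU e (del F), ?_⟩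
  rintro ⟨l, hl⟩
  have h1 := hl e he
  rw [T_apply_of_perp hee, he] at h1
  have hl1 : l = 1 := smul_left_injective F he0 (h1.symm.trans (one_smul F e).symm)
  obtain ⟨f, hf, -, ef⟩ := exists_rat_hyp c h2 he he0 hee
  have h3 := hl f hf
  rw [T_apply hee del_tr, hl1, one_smul, map_add, hf, c.smul, he, add_right_inj, symm1 ef] at h3
  have h4 := smul_left_injective F he0 h3
  simp only [mul_one, star_del] at h4
  exact mul_ne_zero h2 (del_ne (F := F)) (by linear_combination -h4)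

omit c h2 h4 hq hM hH hne hg ha a0 aa in
theorem o_maximal4 {F : Type*} [Field F] [Fintype F] (q : ℕ) (hF : Fintype.card F = q ^ 2)
    (hodd : Odd q) (hq : 5 ≤ q) (F₀ : Subfield F) (P : GL (Fin 4) F)
    (hcard : Fintype.card F = Nat.card F₀ ^ 2)
    (hP : Geo.IsFormRationalStructure (hermForm 4 F q) F₀ 1 P) :
    Geo.IsMaximalIn (GU 4 F q ⊓ Geo.specialLinear (Fin 4) F)
      (Geo.subfieldSubgroup F₀ P ⊓ (GU 4 F q ⊓ Geo.specialLinear (Fin 4) F)) := by
  let _ := powStar hF
  have := powStar_nstar hF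
  obtain rfl := subfield_eq_F0 hF F₀ hcard
  let h := (stdHF (Fin 4) F).comap (gl0 P).symm.symm
  have c : h.Conj 1 (cj0 (Fin 4) F) := conj_cj0 h (Or.inl rfl) fun i j => by
    have h1 : star (1 * h (Pi.single i 1) (Pi.single j 1)) =
      1 * h (Pi.single i 1) (Pi.single j 1) := hP _ _ (single_mem _ i) (single_mem _ j)
    rw [one_mul, HF.conj] at h1
    rw [h1, one_mul]
  have h2 := two_ne_zero_of_odd hF hodd
  obtain ⟨t, t1, t2⟩ := exists_real_not_mem hF [0, 1, -1] (by simp; omega)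
  simp only [List.mem_cons, List.not_mem_nil, or_false, not_or] at t2
  exact isMaximalIn_of_core (gl0 P).symm h _ _
    (fun g => (mem_GU_iff hF 4 g).trans (mem_GU_comap _ _ g))
    (HF.ConjStab (cj0 (Fin 4) F)) (fun g _ => mem_subfieldSubgroup_F0)
    (o_ne4 c h2 (by simp)) fun M hM hH hg =>
      o_core4 c h2 (by simp) ⟨t, t1, t2.1, by simp [mul_self_eq_one_iff, t2]⟩ hM hH hg

end Cfsg.Agent.H9.U4
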