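import Cfsg.Agent.H9.U4.A
import Cfsg.Agent.H5.U.Sub2
import Cfsg.Agent.H1.OSub3

/-! Maximal subgroups of `SU_4(q)`: subfield subgroups of odd prime index. -/

set_option autoImplicit false
set_option linter.unusedSimpArgs false
set_option linter.unusedSectionVars false
set_option linter.unusedVariables false

namespace Cfsg.Agent.H9.U4

open Module Cfsg.Agent.H6 Cfsg.Agent.H5.U Cfsg.Agent.H5.U.HF

variable {K : Type*} [Field K] [StarRing K] [NStar K] [Finite K]
  {F : Type*} [Field F] [StarRing F] [NStar F] [Finite F] [Algebra K F]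
  {V₀ : Type*} [AddCommGroup V₀] [Module K V₀] [FiniteDimensional K V₀]
  {V : Type*} [AddCommGroup V] [Module F V] [Module K V] [IsScalarTower K F V]
  [FiniteDimensional F V]
  {h₀ : H5.U.HF K V₀} {h : H5.U.HF F V} {j : V₀ →ₗ[K] V} {M : Subgroup (V ≃ₗ[F] V)}

theorem card_sq (F : Type*) [Field F] [StarRing F] [NStar F] : Nat.card F = Nat.card (F0 F) ^ 2 := by
  obtain ⟨θ, hθ⟩ := NStar.exists_ne (F := F)
  rw [sq, ← Nat.card_prod]
  refine (Nat.card_eq_of_bijective (fun p : F0 F × F0 F => (p.1 : F) + p.2 * θ) ⟨fun p p' e => ?_, fun z => ?_⟩).symm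
  · have e' := congrArg star e
    simp only [star_add, star_mul', star_F0] at e e'
    have e2 : (p.2 : F) = p'.2 := mul_right_cancel₀ (sub_ne_zero.2 hθ) (by linear_combination e' - e)
    exact Prod.ext (Subtype.ext (by rw [e2] at e; simpa using e)) (Subtype.ext e2)
  · obtain ⟨x, y, hx, hy, rfl⟩ := exists_coord hθ z
    exact ⟨(⟨x, hx⟩, ⟨y, hy⟩), rfl⟩

theorem not_five_dvd' (hro : Odd (finrank K F)) (hk : Nat.card (F0 K) < 4) :
    ¬ 5 ∣ Nat.card (GL (Fin 2) (F0 F)) := by
  have := Fintype.ofFinite (F0 F)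
  have h1 := Module.natCard_eq_pow_finrank (K := K) (V := F)
  have h2 : 1 < Nat.card (F0 K) := Finite.one_lt_card
  have h3 : ((Fintype.card (F0 F) : ℕ) : ZMod 5) ^ 2 = -1 := by
    rw [← Nat.card_eq_fintype_card, ← Nat.cast_pow, ← card_sq, h1, card_sq, Nat.cast_pow]
    have : ((Nat.card (F0 K) ^ 2 : ℕ) : ZMod 5) = -1 := by
      obtain h | h : Nat.card (F0 K) = 2 ∨ Nat.card (F0 K) = 3 := by omega
      all_goals rw [h]; decide
    rw [this, hro.neg_one_pow]
  rw [Matrix.card_GL_field, Fin.prod_univ_two, ← ZMod.natCast_eq_zero_iff]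
  have h4 : 1 ≤ Fintype.card (F0 F) := Fintype.card_pos
  simp only [Fin.val_zero, pow_zero, Fin.val_one, pow_one, Nat.cast_mul]
  rw [Nat.cast_sub (Nat.one_le_pow _ _ h4), Nat.cast_sub (by nlinarith), Nat.cast_pow, Nat.cast_one]
  generalize ((Fintype.card (F0 F) : ℕ) : ZMod 5) = q at *
  revert q
  decide

variable (r : RS h₀ h j) (hM : M ≤ h.SU) (hH : ∀ g ∈ h.SU, PH F j g → g ∈ M)
include r hM hH

theorem step14 (hr : (finrank K F).Prime) (h5 : finrank K V₀ = 4) (hne : ¬ h.SU ≤ M) {e : V₀}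
    (he : h₀ e e = 0) (he0 : e ≠ 0) :
    (∀ c : F, c + star c = 0 → h.T (j e) c ∈ M → ∃ a : K, c = algebraMap K F a) ∧
      ∀ w ∈ h.ME M (j e) (r.iso he), ∀ v, h₀ v e = 0 → ∃ a : K, h w (j v) = algebraMap K F a := by
  obtain ⟨f, hff, hef⟩ := exists_partner_top he0 he
  set W := ⊤ ⊓ h₀.pv e ⊓ h₀.pv f with hWdef
  have hW : h₀.NdOn W := ndOn_top.inf_pv₂ trivial trivial he hff hef
  have hW3 : 2 ≤ finrank K W := by
    have := finrank_inf_hyp (h := h₀) (W := ⊤) trivial trivial he hef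
    rw [finrank_top, ← hWdef] at this; omega
  have hWe : ∀ x ∈ W, h₀ x e = 0 := fun x hx => hx.1.2
  let Lam : F → Prop := fun l => ∀ x ∈ W, l • j x ∈ h.ME M (j e) (r.iso he)
  have lam_of : ∀ l : F, ∀ v ∈ W, v ≠ 0 → h₀ v v = 0 → l • j v ∈ h.ME M (j e) (r.iso he) → Lam l := by
    intro l v hv hv0 hvv hl x hx
    obtain ⟨v', hv', vv', k⟩ := hW.exists_partner hv hv0 hvv
    have p := hb_of h5 he hff hvv vv' hef k (symm0 hv.1.2) (symm0 hv'.1.2) (symm0 hv.2) (symm0 hv'.2)
    have k1 : ∀ s : K, l • j (s • v) ∈ h.ME M (j e) (r.iso he) := fun s => by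
      refine mem_of_mul ((h.ME M (j e) (r.iso he)).comap ((DistribSMul.toAddMonoidHom V l).comp
        (j ∘ₗ LinearMap.toSpanSingleton K V₀ v).toAddMonoidHom)) (fun s hs m t hm ht ht' => ?_)
        (x := 1) (by simpa using hl) one_ne_zero s
      obtain ⟨g, hg, hx⟩ := r.ext hM hH (p.DD hm ht ht').1
      have := ME_map_smul (he := r.iso he) (w := l • j (s • v)) hM hs hg (a := algebraMap K F m) (by
        rw [hx, (p.DD hm ht ht').2.1, j_smul (F := F)])
      rw [map_smul, hx, map_smul, (p.DD hm ht ht').2.2, r.st, smul_comm, ← j_smul (F := F),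
        smul_smul, smul_smul] at this
      show l • j ((t * (star m / m) * s) • v) ∈ h.ME M (j e) (r.iso he)
      convert this using 4
      ring
    have hd := del_ne (F := K)
    have k2 := T_sub_mem hM (k1 (h₀ x v / del K)) (r.iso vv') (by simp [r.form, p.eb])
      (by rw [r.st, ← map_add, del_tr, map_zero]) (r.T_mem hM hH vv' (del_tr (F := K)))
    have k3 := p.span x
    rw [hWe x hx, show h₀ x f = 0 from hx.2] at k3
    convert add_mem (k1 (h₀ x v')) k2 using 1
    conv_lhs => rw [k3]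
    have := (map_ne_zero (algebraMap K F)).2 hd
    simp only [smul_left, r.form, k, map_add, j_smul (F := F), map_div₀, mul_one, map_zero, map_one,
      zero_smul, zero_add]
    match_scalars <;> field_simp
  have key : ∀ w ∈ h.ME M (j e) (r.iso he), ∀ d : F, d + star d = 0 → h.T (j e) d ∈ M →
      ∀ v ∈ W, v ≠ 0 → h₀ v v = 0 → Lam (d * h w (j v)) := by
    intro w hw d hd hT v hv hv0 hvv
    have h1 := ME_map hM hw (r.T_all hM hH (by omega) he he0 hvv hv0 hd hT)
      (T_apply_of_perp (by simp [r.form, symm0 (hWe v hv)]))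
    rw [T_apply (r.iso hvv) hd] at h1
    exact lam_of _ v hv hv0 hvv (by simpa using AddSubgroup.sub_mem _ h1 hw)
  obtain ⟨a, ha, b, hb, haa, hbb, hab⟩ := hW.exists_hyp (by omega)
  have hb0 : b ≠ 0 := ne_zero_right (by rw [hab]; exact one_ne_zero)
  have hone : Lam 1 := fun x hx => by simpa using r.mem_ME hM hH he (hWe x hx)
  have hsm : ∀ (s : K) l, Lam l → Lam (algebraMap K F s * l) := fun s l hl x hx => by
    have := hl _ (W.smul_mem s hx)
    rwa [j_smul (F := F), smul_smul, mul_comm] at this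
  have hadd : ∀ l m, Lam l → Lam m → Lam (l + m) := fun l m hl hm x hx => by
    rw [add_smul]; exact AddSubgroup.add_mem _ (hl x hx) (hm x hx)
  have hC : ∀ l, Lam l → ∀ s : K, h.T (j e) (algebraMap K F s * l - star (algebraMap K F s * l)) ∈ M :=
    fun l hl s => by simpa [r.form, hab, symm1 hab] using T_mem_of_ME (hsm s l hl a ha) (hone b hb)
  have hCL : ∀ d : F, d + star d = 0 → h.T (j e) d ∈ M → ∀ l, Lam l → Lam (d * l) :=
    fun d hd hT l hl => by simpa [r.form, hab] using key _ (hl a ha) d hd hT b hb hb0 hbb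
  obtain ⟨θ, hθ⟩ := NStar.exists_ne (F := K)
  let S : Subalgebra K F :=
    { carrier := {l | Lam l}
      mul_mem' := fun {l m} hl hm => by
        have h1 := hCL _ (by simp) (hC l hl θ) m hm
        have h2 := hsm (-star θ) _ (hCL _ (by simp) (hC l hl 1) m hm)
        have h3 := hsm (θ - star θ)⁻¹ _ (hadd _ _ h1 h2)
        have h4 : algebraMap K F θ - algebraMap K F (star θ) ≠ 0 := by
          rw [← map_sub]; simpa [sub_eq_zero] using hθ.symm
        show Lam (l * m)
        convert h3 using 1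
        simp only [map_inv₀, map_sub, map_neg, map_one, one_mul, star_mul', r.st]
        field_simp; ring
      add_mem' := fun {l m} hl hm => hadd l m hl hm
      algebraMap_mem' := fun s => by simpa using hsm s 1 hone }
  have hd := del_ne (F := K)
  have hdT := r.T_mem hM hH he (del_tr (F := K))
  have hd' : algebraMap K F (del K) + star (algebraMap K F (del K)) = 0 := by
    rw [r.st, ← map_add, del_tr, map_zero]
  rcases (Subalgebra.isSimpleOrder_of_finrank_prime K F hr).eq_bot_or_eq_top S with h3 | h3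
  · have h4 : ∀ l, Lam l → ∃ s : K, l = algebraMap K F s := fun l hl => by
      obtain ⟨s, hs⟩ := Algebra.mem_bot.1 (h3 ▸ show l ∈ S from hl)
      exact ⟨s, hs.symm⟩
    refine ⟨fun c hc hT => h4 c (by simpa using hCL c hc hT 1 hone), fun w hw v hv => ?_⟩
    have h6 : ∀ x ∈ W, ∃ a : K, h w (j x) = algebraMap K F a := by
      intro x hx
      let A : AddSubgroup V₀ :=
        { carrier := {x | ∃ a : K, h w (j x) = algebraMap K F a}
          add_mem' := by
            rintro x y ⟨s, hs⟩ ⟨t, ht⟩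
            exact ⟨s + t, by simp [hs, ht]⟩
          zero_mem' := ⟨0, by simp⟩
          neg_mem' := by
            rintro x ⟨s, hs⟩
            exact ⟨-s, by simp [hs]⟩ }
      refine hW.mem_addSubgroup (by omega) A (fun u hu huu => ?_) hx
      by_cases hu0 : u = 0
      · exact hu0 ▸ A.zero_mem
      obtain ⟨s, hs⟩ := h4 _ (key w hw _ hd' hdT u hu hu0 huu)
      exact ⟨(del K)⁻¹ * s, by rw [map_mul, ← hs]; simp [hd]⟩
    obtain ⟨s, hs⟩ := h6 (v - h₀ v f • e) ⟨⟨trivial, by simp [hv, he]⟩, by simp [hef]⟩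
    exact ⟨s, by simpa [r.smulK_right, ME_perp hw] using hs⟩
  · exfalso
    have h4 : ∀ l, Lam l := fun l => show l ∈ S from h3 ▸ trivial
    obtain ⟨t, ht⟩ := exists_tr_one F
    have hX : h.XIn M (j e) := fun c hc => by
      convert hC (c * t) (h4 _) 1 using 2
      simp only [map_one, one_mul, star_mul']
      linear_combination (-c) * ht + star t * hc
    refine hne (SU_le_of_Q_X hM (r.iso he) (qIn_of_ME (r.iso he) hX fun w _ hw => ?_) (r.iso hff)
      (by simp [r.form, hef]) fun c hc => r.T_all hM hH (by omega) he he0 hff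
        (ne_zero_right (by rw [hef]; exact one_ne_zero)) hc (hX c hc))
    have h6 := r.ext_fun (A := (core F (h.ME M (j e) (r.iso he))).comap
      (LinearMap.id - (h.lin (j f)).smulRight (j e) - (h.lin (j e)).smulRight (j f))) (fun x c => by
        have := h4 c (x - h₀ x f • e - h₀ x e • f) ⟨⟨trivial, by simp [he, symm1 hef]⟩,
          by simp [hef, hff]⟩
        simpa [j_smul (F := F), r.form] using this) w
    simpa [hw] using AddSubgroup.add_mem _ (mem_of_mem_core h6)
      (smul_self_mem_ME (r.iso he) hX (h w (j f)))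

variable (hr : (finrank K F).Prime) (h5 : finrank K V₀ = 4) (hne : ¬ h.SU ≤ M)
include hr h5 hne

theorem step2a4 {y : V ≃ₗ[F] V} (hy : y ∈ M) {e e' : V₀} (he : h₀ e e = 0) (he0 : e ≠ 0)
    (he' : h₀ e' e' = 0) (he0' : e' ≠ 0) {a : F} (hye : y (j e) = a • j e') :
    (∃ s : K, a * star a = algebraMap K F s) ∧
      ∀ x, h₀ x e = 0 → ∃ x', star a • y (j x) = j x' := by
  have hy1 := (hM hy).1
  have ha : a ≠ 0 := by rintro rfl; exact r.j_ne he0 (by simpa using hye)
  have ha' := star_ne_zero' ha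
  obtain ⟨hC, hL⟩ := step14 r hM hH hr h5 hne he' he0'
  have hd := del_ne (F := K)
  have hd' : algebraMap K F (del K) + star (algebraMap K F (del K)) = 0 := by
    rw [r.st, ← map_add, del_tr, map_zero]
  have htr : ∀ t : F, star t = t → t * algebraMap K F (del K) + star (t * algebraMap K F (del K)) = 0 :=
    fun t ht => by rw [star_mul', ht]; linear_combination t * hd'
  obtain ⟨s, hs⟩ : ∃ s : K, a * star a = algebraMap K F s := by
    have h1 := r.T_mem hM hH he (del_tr (F := K))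
    have h2 := M.mul_mem (M.mul_mem hy h1) (M.inv_mem hy)
    rw [conj_T hy1 (r.iso he) hd', hye, T_smul (r.iso he') hd'] at h2
    obtain ⟨s, hs⟩ := hC _ (htr _ (star_norm a)) h2
    exact ⟨s * (del K)⁻¹, by rw [map_mul, ← hs]; simp [hd]⟩
  have hs0 : s ≠ 0 := by rintro rfl; exact norm_ne_zero ha (by simpa using hs)
  have hs1 : star s = s := (algebraMap K F).injective (by rw [← r.st, ← hs, star_norm])
  refine ⟨⟨s, hs⟩, fun x hx => ?_⟩
  obtain ⟨f, hff, hef⟩ := exists_partner_top he0 he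
  set W := ⊤ ⊓ h₀.pv e ⊓ h₀.pv f with hWdef
  have hW : h₀.NdOn W := ndOn_top.inf_pv₂ trivial trivial he hff hef
  have hW3 : 2 ≤ finrank K W := by
    have := finrank_inf_hyp (h := h₀) (W := ⊤) trivial trivial he hef
    rw [finrank_top, ← hWdef] at this; omega
  let A : Submodule K V₀ :=
    { carrier := {x | ∃ x', star a • y (j x) = j x'}
      add_mem' := by
        rintro x z ⟨s, hs⟩ ⟨t, ht⟩
        exact ⟨s + t, by simp [hs, ht]⟩
      zero_mem' := ⟨0, by simp⟩
      smul_mem' := by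
        rintro c x ⟨s, hs⟩
        exact ⟨c • s, by rw [j_smul (F := F), j_smul (F := F), map_smul, smul_comm, hs]⟩ }
  have hA : W ≤ A := hW.le_of_iso (by omega) fun v hv hvv => by
    by_cases hv0 : v = 0
    · exact hv0 ▸ A.zero_mem
    have hve : h₀ v e = 0 := hv.1.2
    have h1 : star a • y (j v) ∈ h.ME M (j e') (r.iso he') := by
      obtain ⟨c, o, hc⟩ := r.mem_ME hM hH he hve
      have o' : h.Ok (j e') (y (j v)) c := by
        have := (o.map hy1).smul_left a⁻¹
        rwa [hye, inv_smul_smul₀ ha] at this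
      have h2 := M.mul_mem (M.mul_mem hy hc) (M.inv_mem hy)
      rw [conj_E hy1 o, hye, E_smul_left a o'] at h2
      refine ⟨_, ?_, h2⟩
      have := o'.smul_right (star a); rwa [star_star, mul_comm (star a)] at this
    obtain ⟨v', t, hv'e, hv'⟩ := r.decomp he' he0' (ME_perp h1) (hL _ h1)
    have hvv' : h₀ v' v' = 0 := by
      have h2 : h (star a • y (j v)) (star a • y (j v)) = 0 := by simp [hy1 _ _, r.iso hvv]
      rw [hv'] at h2
      simpa [r.form, hv'e, symm0 hv'e, he'] using h2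
    obtain ⟨u₀, hu₀, hvu₀⟩ := hW.exists_ne hv hv0
    obtain ⟨u, hu1, hu2⟩ := exists_dual_pair' (h := h₀) (x := e') (w := v') (fun c hc => by
      have h2 : h (y (j u₀)) (star a • y (j v)) ≠ 0 := by simpa [hy1 _ _, r.form, ha] using hvu₀
      have h3 : h (y (j u₀)) (a • j e') = 0 := by
        rw [← hye, hy1, r.form, show h₀ u₀ e = 0 from hu₀.1.2, map_zero]
      rw [hv', hc, j_smul (F := F)] at h2
      rw [smul_right, mul_eq_zero, or_iff_right ha'] at h3
      exact h2 (by rw [add_right, smul_right, smul_right, h3]; simp)) 1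
    have hv'0 : v' ≠ 0 := ne_zero_left (by rw [hu2]; exact one_ne_zero)
    have hd2 : s⁻¹ * del K + star (s⁻¹ * del K) = 0 := by simp [hs1]
    have hd3 : algebraMap K F (s⁻¹ * del K) + star (algebraMap K F (s⁻¹ * del K)) = 0 := by
      rw [r.st, ← map_add, hd2, map_zero]
    have h2 : h.T (star a • y (j v)) (algebraMap K F (s⁻¹ * del K)) ∈ M := by
      have h3 := M.mul_mem (M.mul_mem hy (r.T_mem hM hH hvv (del_tr (F := K)))) (M.inv_mem hy)
      rw [conj_T hy1 (r.iso hvv) hd'] at h3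
      rw [T_smul (by rw [hy1, r.iso hvv]) hd3, star_star, mul_comm (star a), hs, ← map_mul,
        mul_inv_cancel_left₀ hs0]
      exact h3
    set d := algebraMap K F (s⁻¹ * del K) with hddef
    have hd4 : star d = -d := by linear_combination hd3
    have o : h.Ok (j e') ((d * star t) • j v') (-(d * (t * star t))) :=
      ⟨r.iso he', by simp [r.form, hv'e], by simp [r.iso hvv', hd4, mul_comm]⟩
    have h3 : h.T (j v' + t • j e') d = h.T (j v') d * h.E (j e') ((d * star t) • j v')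
        (-(d * (t * star t))) := by
      ext x
      rw [H5.U.mul_app, T_apply (by simp [r.form, hv'e, symm0 hv'e, he', hvv']) hd3,
        T_apply (r.iso hvv') hd3, E_apply o]
      simp [r.form, hv'e, symm0 hv'e, he', hvv', hd4]
      module
    rw [hv', h3] at h2
    obtain ⟨c, hc⟩ := hL _ ⟨_, o, (M.mul_mem_cancel_left (r.T_mem hM hH hvv' hd2)).1 h2⟩ u (symm0 hu1)
    simp only [smul_left, r.form, hu2, map_one, mul_one] at hc
    have h4 : t = algebraMap K F (star ((s⁻¹ * del K)⁻¹ * c)) := by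
      rw [← r.st, map_mul, ← hc, map_inv₀, ← hddef, inv_mul_cancel_left₀ (by simp [hddef, hs0, hd]),
        star_star]
    exact ⟨v' + star ((s⁻¹ * del K)⁻¹ * c) • e', by rw [hv', map_add, j_smul (F := F), ← h4]⟩
  have h1 : e ∈ A := ⟨s • e', by rw [hye, smul_smul, mul_comm, hs, j_smul (F := F)]⟩
  have := A.add_mem (hA (x := x - h₀ x f • e) ⟨⟨trivial, by simp [hx, he]⟩, by simp [hef]⟩)
    (A.smul_mem (h₀ x f) h1)
  rwa [sub_add_cancel] at this

theorem step24 {y : V ≃ₗ[F] V} (hy : y ∈ M) {e e' : V₀} (he : h₀ e e = 0) (he0 : e ≠ 0)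
    (he' : h₀ e' e' = 0) (he0' : e' ≠ 0) {a : F} (hye : y (j e) = a • j e') : RP j (star a) y := by
  have hy1 := (hM hy).1
  have ha : a ≠ 0 := by rintro rfl; exact r.j_ne he0 (by simpa using hye)
  have ha' := star_ne_zero' ha
  obtain ⟨⟨s, hs⟩, h1⟩ := step2a4 r hM hH hr h5 hne hy he he0 he' he0' hye
  obtain ⟨f, hff, hef⟩ := exists_partner_top he0 he
  have hW : h₀.NdOn (⊤ ⊓ h₀.pv e ⊓ h₀.pv f) := ndOn_top.inf_pv₂ trivial trivial he hff hef
  obtain ⟨u, hu, v, hv, huu, hvv, huv⟩ := hW.exists_hyp (by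
    have := finrank_inf_hyp (h := h₀) (W := ⊤) trivial trivial he hef
    rw [finrank_top] at this; omega)
  have hv0 : v ≠ 0 := ne_zero_right (by rw [huv]; exact one_ne_zero)
  obtain ⟨v', hv'⟩ := h1 v hv.1.2
  obtain ⟨-, h2⟩ := step2a4 r hM hH hr h5 hne hy hvv hv0 (e' := v') (a := (star a)⁻¹)
    ((algebraMap K F).injective (by rw [← r.form, ← hv']; simp [hy1 _ _, r.iso hvv]))
    (by rintro rfl; exact r.j_ne hv0 (by simpa [ha] using hv')) (by rw [← hv', inv_smul_smul₀ ha'])
  intro x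
  obtain ⟨x₁, hx₁⟩ := h2 (x - h₀ x v • u) (by simp [huv])
  obtain ⟨x₂, hx₂⟩ := h1 (h₀ x v • u) (by simp [show h₀ u e = 0 from hu.1.2])
  refine ⟨s • x₁ + x₂, ?_⟩
  rw [map_add, j_smul (F := F), ← hx₁, ← hx₂, ← hs, smul_smul, star_inv₀, star_star,
    show a * star a * a⁻¹ = star a by field_simp, ← smul_add, ← map_add, ← map_add, sub_add_cancel]

theorem block4 {g : V ≃ₗ[F] V} (hg : g ∈ M) {e u : V₀} (he : h₀ e e = 0) (he0 : e ≠ 0)
    (hu : h₀ u u = 0) (hu0 : u ≠ 0) (heu : h (j e) (g (j u)) = 0) : PH F j g := by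
  have hg1 := (hM hg).1
  have hd' : algebraMap K F (del K) + star (algebraMap K F (del K)) = 0 := by
    rw [r.st, ← map_add, del_tr, map_zero]
  have h1 := M.mul_mem (M.mul_mem hg (r.T_mem hM hH hu (del_tr (F := K)))) (M.inv_mem hg)
  rw [conj_T hg1 (r.iso hu) hd'] at h1
  have h2 := step24 r hM hH hr h5 hne h1 he he0 he he0 (a := 1) (by rw [T_apply_of_perp heu, one_smul])
  obtain ⟨x, hx⟩ : ∃ x, h (j x) (g (j u)) ≠ 0 := by
    by_contra! h'
    exact r.j_ne hu0 (by simpa using r.eq_zero h')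
  obtain ⟨x', hx'⟩ := h2 x
  have hp : h (g (j u)) (g (j u)) = 0 := by rw [hg1, r.iso hu]
  rw [star_one, one_smul, T_apply hp hd'] at hx'
  have hm : algebraMap K F (del K) * h (j x) (g (j u)) ≠ 0 := mul_ne_zero (by simp [del_ne]) hx
  have h3 : j (x' - x) = (algebraMap K F (del K) * h (j x) (g (j u))) • g (j u) := by
    rw [map_sub, ← hx']; simp
  exact ⟨_, star_ne_zero' (inv_ne_zero hm), step24 r hM hH hr h5 hne hg hu hu0 (e' := x' - x)
    ((algebraMap K F).injective (by rw [← r.form, h3]; simp [hp]))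
    (fun h0 => r.j_ne hu0 (by simpa [h0, hx, del_ne] using h3.symm))
    (by rw [h3, inv_smul_smul₀ hm])⟩

theorem fin4 {g z : V ≃ₗ[F] V} (hg : g ∈ M) (hz : z ∈ M) (hz1 : z ≠ 1) (hp : RP j 1 (g⁻¹ * z * g))
    {e : V₀} (he0 : e ≠ 0) (he : h₀ e e = 0) (hze : z (j e) = j e) : PH F j g := by
  obtain ⟨x, y, hy0, hy, hxy⟩ := r.exists_iso_range
    (hM (M.mul_mem (M.mul_mem (M.inv_mem hg) hz) hg)) (fun h0 => hz1 (by
      rw [show z = g * (g⁻¹ * z * g) * g⁻¹ by group, h0]; simp)) hp
  refine block4 r hM hH hr h5 hne hg he he0 hy hy0 ?_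
  rw [← hxy, map_sub, H5.U.mul_app, H5.U.mul_app, apply_inv_apply, sub_right]
  nth_rewrite 1 [← hze]
  rw [(hM hz).1, sub_self]

theorem core_even4 (hro : Odd (finrank K F)) (h2 : (2 : F) = 0) {g : V ≃ₗ[F] V} (hg : g ∈ M) :
    PH F j g := by
  have := finite_equiv F V
  have h2' : (2 : K) = 0 := (algebraMap K F).injective (by rw [map_ofNat, h2, map_zero])
  have hg1 := (hM hg).1
  obtain ⟨e, -, f, -, hee, hff, hef⟩ := (ndOn_top (h := h₀)).exists_hyp (by simp; omega)
  obtain ⟨a, ha, b, hb, haa, hbb, hab⟩ := (ndOn_top.inf_pv₂ trivial trivial hee hff hef).exists_hyp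
    (by
      have := finrank_inf_hyp (h := h₀) (W := ⊤) trivial trivial hee hef
      rw [finrank_top] at this; omega)
  have hae : h₀ a e = 0 := ha.1.2
  have haf : h₀ a f = 0 := ha.2
  have hbe : h₀ b e = 0 := hb.1.2
  have he0 : e ≠ 0 := ne_zero_left (by rw [hef]; exact one_ne_zero)
  have o : h₀.Ok e a 0 := ⟨hee, hae, by simp [haa]⟩
  have o' : h.Ok (j e) (j a) 0 := by simpa using r.ok o
  have h1 : (1 : F) + star 1 = 0 := by simp; linear_combination h2
  have hT : h.T (j e) 1 ∈ M := by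
    simpa using r.T_mem hM hH hee (c := 1) (by simp; linear_combination h2')
  have hE : h.E (j e) (j a) 0 ∈ M := by simpa using r.E_mem hM hH o
  have hEE : h.E (j e) (j a) 0 * h.E (j e) (j a) 0 = 1 := by
    rw [E_mul o' o', ← two_smul F (j a), h2]; simp [r.iso haa, E_zero]
  rcases dihedral_alt (T_sq h2 (r.iso hee) h1) (t := g * h.E (j e) (j a) 0 * g⁻¹)
    (by rw [conj_mul, hEE]; simp) hT (M.mul_mem (M.mul_mem hg hE) (M.inv_mem hg)) with
    ⟨x, -, hx, -, h3⟩ | ⟨z, -, hz, hz1, hzz, h3, h4⟩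
  · exfalso
    rw [conj_T (hM hx).1 (r.iso hee) h1] at h3
    have h4 := congrArg (fun k => k (g (j f))) h3
    simp only [H5.U.mul_app, inv_apply_apply, E_apply o', T_apply (((hM hx).1 _ _).trans (r.iso hee)) h1,
      r.form, symm1 hef, symm0 haf, map_add, map_sub, map_one, map_zero, one_smul, zero_mul,
      add_zero, zero_smul, sub_zero, add_right_inj, one_mul] at h4
    have h6 := hg1 (j f) (j a)
    rw [h4, smul_right, r.form, symm0 haf, map_zero, mul_eq_zero, star_eq_zero, or_self] at h6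
    have h7 := hg1 (j a) (j b)
    simp [h4, h6, r.form, hab] at h7
  · have h6 := eq_self_of_commute_T h2 (hM hz).1 hzz (r.iso hee) h1 one_ne_zero h3
    have h7 : RP j 1 z := by
      simpa using step24 r hM hH hr h5 hne hz hee he0 hee he0 (a := 1) (by rw [h6, one_smul])
    have hz' := M.mul_mem (M.mul_mem (M.inv_mem hg) hz) hg
    have h8 : h.E (j e) (j a) 0 * (g⁻¹ * z * g) = (g⁻¹ * z * g) * h.E (j e) (j a) 0 := by
      calc _ = g⁻¹ * (g * h.E (j e) (j a) 0 * g⁻¹ * z) * g := by group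
        _ = _ := by rw [h4]; group
    have h9 := congrArg (fun k => h (k (j e)) (j b)) h8
    simp only [H5.U.mul_app (h.E _ _ _), H5.U.mul_app _ (h.E _ _ _), E_self o'] at h9
    rw [E_apply o'] at h9
    simp [r.form, hab, symm0 hbe] at h9
    obtain ⟨x, y, hy0, hy, hxy⟩ := r.exists_iso_range (hM hz) hz1 h7
    exact fin4 r hM hH hr h5 hne hg hz hz1 (r.rp_of_sq hr hro (by omega)
      (by rw [show g⁻¹ * z * g * (g⁻¹ * z * g) = g⁻¹ * (z * z) * g by group, hzz]; simp)
      (block4 r hM hH hr h5 hne hz' hee he0 hee he0 (symm0 h9))) hy0 hy (by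
        rw [← hxy, map_sub, ← H5.U.mul_app, hzz, H5.U.one_app, sub_eq_sub_iff_add_eq_add, ← two_smul F,
          ← two_smul F, h2, zero_smul, zero_smul])

theorem norm_rat (hro : Odd (finrank K F)) (h2 : (2 : F) ≠ 0) {w : V} (ww : h w w = 0)
    (hw : h.T w (algebraMap K F (del K)) ∈ M) {e : V₀} (he : h₀ e e = 0) :
    ∃ s : K, h (j e) w * h w (j e) = algebraMap K F s := by
  by_cases h0 : h (j e) w = 0
  · exact ⟨0, by simp [h0]⟩
  have he0 : e ≠ 0 := by rintro rfl; simp at h0
  have h1 := symm_ne h0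
  have d0 := (map_ne_zero (algebraMap K F)).2 (del_ne (F := K))
  have d1 : star (algebraMap K F (del K)) = -algebraMap K F (del K) := by rw [r.st, star_del, map_neg]
  set d := algebraMap K F (del K) with hd
  have dt : d + star d = 0 := by simp [d1]
  let k : Subfield (F0 F) := (algebraMap K F).fieldRange.comap (F0 F).subtype
  have := H1.dickson_lemma (F := F0 F) (fun h => h2 (congrArg Subtype.val h))
    ((H1.plGL M (j e) ((d * h (j e) w) • w) 0 0 fun v => h v w = 0 ∧ h v (j e) = 0).comap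
      (Matrix.GeneralLinearGroup.map (F0 F).subtype)) k
    (δ := ⟨d * d * (h (j e) w * h w (j e)), by simp [mem_F0, d1, mul_comm]⟩)
    (fun h => by simpa [d0, h0, h1] using congrArg Subtype.val h) (fun s => ⟨?_, ?_⟩) ?_ ?_
  · obtain ⟨s, hs⟩ := this
    exact ⟨s / (del K * del K), by rw [map_div₀, hs, map_mul, ← hd]; simp; field_simp⟩
  · rintro ⟨t, ht, g1, g2, -, -, g3⟩
    simp at g1 g2
    obtain ⟨g4, g5⟩ := eq_T_of (hM ht).1 (e := (d * h (j e) w) • w) (γ := s) (r.iso he)
      (by simp [d0, h0, h1]) (by rw [map_smul, g2, add_comm]) g1 fun x a b => g3 x ⟨by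
        simpa [d0, h1, d1] using a, b⟩
    obtain ⟨a, ha⟩ := (step14 r hM hH hr h5 hne he he0).1 _ g4 (g5 ▸ ht)
    exact ⟨a / del K, by rw [map_div₀, ← ha, ← hd]; simp; field_simp⟩
  · rintro ⟨a, ha⟩
    simp at ha
    have a1 : star a = a := (algebraMap K F).injective (by rw [← r.st, ha]; simp [d1, mul_comm])
    have a2 : a * del K + star (a * del K) = 0 := by simp [a1]
    have a3 : algebraMap K F (a * del K) + star (algebraMap K F (a * del K)) = 0 := by
      rw [r.st, ← map_add, a2, map_zero]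
    refine ⟨_, r.T_mem hM hH he a2, by simp [T_apply_of_perp (r.iso he)], ?_, by simp, by simp,
      fun v hv => T_apply_of_perp hv.2⟩
    rw [T_apply (r.iso he) a3, map_mul, ha, ← hd]
    simp
    match_scalars <;> field_simp
  · exact ⟨_, hw, by simp [T_apply ww dt], by simp [T_apply ww dt, ww], by simp, by simp,
      fun v hv => T_apply_of_perp hv.1⟩
  by_cases c : Nat.card (F0 K) < 4
  · exact Or.inr (not_five_dvd' hro c)
  · refine Or.inl ((not_lt.1 c).trans (Nat.card_le_card_of_injective (fun x => (⟨⟨algebraMap K F x, by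
      rw [mem_F0, r.st, star_F0]⟩, x, rfl⟩ : k)) fun x y e => ?_))
    exact Subtype.ext ((algebraMap K F).injective (congrArg (fun z : k => (z.1 : F)) e))

theorem core_odd4 (hro : Odd (finrank K F)) (h2 : (2 : F) ≠ 0) {g : V ≃ₗ[F] V} (hg : g ∈ M) :
    PH F j g := by
  by_contra hc
  obtain ⟨e, -, f, -, ee, ff, ef⟩ := (ndOn_top (h := h₀)).exists_hyp (by simp [h5])
  obtain ⟨a, ha, b, hb, aa, bb, ab⟩ := (ndOn_top.inf_pv₂ trivial trivial ee ff ef).exists_hyp (by
    have := finrank_inf_hyp (h := h₀) (W := ⊤) trivial trivial ee ef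
    rw [finrank_top] at this; omega)
  have p := hb_of h5 ee ff aa bb ef ab (symm0 ha.1.2) (symm0 hb.1.2) (symm0 ha.2) (symm0 hb.2)
  have e0 : e ≠ 0 := ne_zero_left (ef ▸ one_ne_zero)
  have gen : ∀ x, h₀ x x = 0 → x ≠ 0 → h (j x) (g (j e)) ≠ 0 := fun x xx x0 h0 =>
    hc (block4 r hM hH hr h5 hne hg xx x0 ee e0 h0)
  have ww : h (g (j e)) (g (j e)) = 0 := by rw [(hM hg).1, r.iso ee]
  have hw := mul_mem (mul_mem hg (r.T_mem hM hH ee (del_tr (F := K)))) (inv_mem hg)
  rw [conj_T (hM hg).1 (r.iso ee) (by rw [r.st, ← map_add, del_tr, map_zero])] at hw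
  generalize g (j e) = w at gen ww hw
  have hN := fun x => norm_rat r hM hH hr h5 hne hro h2 ww hw (e := x)
  have key : ∀ x y, h₀ x x = 0 → x ≠ 0 → h₀ y y = 0 → h₀ x y = 0 →
      ∃ s : K, h (j y) w = algebraMap K F s * h (j x) w := fun x y xx x0 yy xy => by
    obtain ⟨θ, hθ⟩ := NStar.exists_ne (F := K)
    obtain ⟨s, hs⟩ := hN x xx
    obtain ⟨t, ht⟩ := hN y yy
    obtain ⟨u, hu⟩ := hN (x + y) (by simp [xx, yy, xy, symm0 xy])
    obtain ⟨v, hv⟩ := hN (x + θ • y) (by simp [xx, yy, xy, symm0 xy])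
    simp only [map_add, j_smul (F := F), add_left, add_right, smul_left, smul_right, r.st] at hu hv
    have k1 := symm_ne (gen x xx x0)
    have k2 := (map_ne_zero (algebraMap K F)).2 (sub_ne_zero.2 hθ.symm)
    have k3 : algebraMap K F s ≠ 0 := hs ▸ mul_ne_zero (gen x xx x0) k1
    refine ⟨(v - s - θ * star θ * t - star θ * (u - s - t)) / ((θ - star θ) * s), ?_⟩
    simp only [map_div₀, map_sub, map_mul, ← hs, ← ht, ← hu, ← hv] at k2 ⊢
    have := gen x xx x0
    field_simp; ring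
  obtain ⟨s, hs⟩ := key e a ee e0 aa p.ea
  obtain ⟨t, ht⟩ := key e b ee e0 bb p.eb
  obtain ⟨u, hu⟩ := key a f aa (ne_zero_left (ab ▸ one_ne_zero)) ff (symm0 p.fa)
  have k1 := gen e ee e0
  obtain ⟨y, hy⟩ := r.rat_of_val (v := (star (h (j e) w))⁻¹ • w) fun x =>
    ⟨h₀ x f + h₀ x e * u * s + h₀ x b * s + h₀ x a * t, by
      conv_lhs => rw [p.span x]
      simp [smulK_left, hu, hs, ht]; field_simp⟩
  refine gen y ((algebraMap K F).injective ?_) (by rintro rfl; simp [symm_ne k1, ne_zero_right k1] at hy)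
    (by simp [← hy, ww])
  simp [← r.form, ← hy, ww]

omit r hM hH hr h5 hne in
theorem sub_maximal4 {F : Type*} [Field F] [Fintype F] (q : ℕ) (hF : Fintype.card F = q ^ 2)
    (F₀ : Subfield F) (r : ℕ) (P : GL (Fin 4) F) (hr : r.Prime) (hro : Odd r)
    (hcard : Fintype.card F = Nat.card F₀ ^ r)
    (hP : Geo.IsFormRationalStructure (hermForm 4 F q) F₀ 1 P) :
    Geo.IsMaximalIn (GU 4 F q ⊓ Geo.specialLinear (Fin 4) F)
      (Geo.subfieldSubgroup F₀ P ⊓ (GU 4 F q ⊓ Geo.specialLinear (Fin 4) F)) :=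
  odd_subfield_maximal_of 4 q hF (by omega) F₀ r hr hro hcard P hP
    fun h₀ h j rs h1 h2 M hM hH ⟨g, hg, hg'⟩ => by_contra fun hne => hg' (by
      by_cases h3 : (2 : F) = 0
      exacts [core_even4 rs hM hH h1 (by simp) hne h2 h3 hg, core_odd4 rs hM hH h1 (by simp) hne h2 h3 hg])

end Cfsg.Agent.H9.U4
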